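import Cfsg.Agent.Lib.Helper25.Elu.Defs

/-! Ladder ELU, rung SS. -/

set_option autoImplicit false

namespace Cfsg.Agent.Lib.Helper25.Elu

open Module Polynomial

variable {F : Type*} [Field F] {V : Type*} [AddCommGroup V] [Module F V]

/-- `X^r - c` is separable, hence squarefree: `Module.End.isSemisimple_of_squarefree_aeval_eq_zero`. -/
theorem isSemisimple_of_pow (T : End F V) {r : ℕ} (hr : (r : F) ≠ 0) {c : F} (hc : c ≠ 0)
    (hT : T ^ r = c • 1) : T.IsSemisimple := by
  have hsep : (X ^ r - C c : F[X]).Separable := separable_X_pow_sub_C c hr hc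
  refine Module.End.isSemisimple_of_squarefree_aeval_eq_zero hsep.squarefree ?_
  rw [map_sub, map_pow, aeval_X, aeval_C, hT, Algebra.algebraMap_eq_smul_one, sub_self]

/-- `Module.End.isSemisimple_iff`. -/
theorem exists_isInv_isCompl {T : End F V} (hss : T.IsSemisimple) {W : Submodule F V}
    (hW : IsInv T W) : ∃ Q : Submodule F V, IsInv T Q ∧ IsCompl W Q := by
  rw [Module.End.isSemisimple_iff] at hss
  obtain ⟨Q, hQ, hc⟩ := hss W (by rw [Module.End.mem_invtSubmodule]; exact hW)
  rw [Module.End.mem_invtSubmodule] at hQ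
  exact ⟨Q, hQ, hc⟩

end Cfsg.Agent.Lib.Helper25.Elu
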