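import Cfsg.Agent.Lib.Helper25.Elu.Defs
import Cfsg.Agent.Lib.Helper25.Elu.SS

/-! Ladder ELU, rung CHAIN. -/

set_option autoImplicit false

namespace Cfsg.Agent.Lib.Helper25.Elu

open Module Polynomial

variable {F : Type*} [Field F] {V : Type*} [AddCommGroup V] [Module F V] [FiniteDimensional F V]

theorem exists_chain_aux (T : End F V) (hss : T.IsSemisimple) (d : ℕ) (hd : 1 ≤ d) (n : ℕ) :
    ∀ (S : Submodule F V), finrank F S ≤ n → IsInv T S →
    (∀ W : Submodule F V, IsInv T W → W ≤ S → W ≠ ⊥ →
      ∃ Z : Submodule F V, IsInv T Z ∧ Z ≤ W ∧ finrank F Z = d) →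
    ∃ (k : ℕ) (B : ℕ → Submodule F V), Monotone B ∧ (∀ j, IsInv T (B j)) ∧
      (∀ j, j ≤ k → finrank F (B j) = d * j) ∧ B k = S := by
  induction n with
  | zero =>
    intro S hn hS _
    have hbot : S = ⊥ := Submodule.finrank_eq_zero.1 (Nat.le_zero.1 hn)
    refine ⟨0, fun _ => ⊥, monotone_const, fun _ => isInv_bot T, ?_, hbot.symm⟩
    intro j hj
    rw [Nat.le_zero.1 hj, mul_zero]
    exact finrank_bot F V
  | succ n ih =>
    intro S hn hS hmin
    by_cases hbot : S = ⊥
    · refine ⟨0, fun _ => ⊥, monotone_const, fun _ => isInv_bot T, ?_, hbot.symm⟩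
      intro j hj
      rw [Nat.le_zero.1 hj, mul_zero]
      exact finrank_bot F V
    · obtain ⟨Z, hZ, hZS, hZd⟩ := hmin S hS le_rfl hbot
      obtain ⟨Q, hQ, hZQ⟩ := exists_isInv_isCompl hss hZ
      have hsup : Z ⊔ (Q ⊓ S) = S := by
        rw [← sup_inf_assoc_of_le Q hZS, hZQ.sup_eq_top, top_inf_eq]
      have hinf : Z ⊓ (Q ⊓ S) = ⊥ := by
        rw [← inf_assoc, hZQ.inf_eq_bot, bot_inf_eq]
      have hdim : finrank F S = d + finrank F ↥(Q ⊓ S) := by
        have := Submodule.finrank_sup_add_finrank_inf_eq Z (Q ⊓ S)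
        rw [hsup, hinf, finrank_bot, add_zero, hZd] at this
        exact this
      obtain ⟨k, B, hB, hBi, hBd, hBk⟩ := ih (Q ⊓ S) (by omega) (hQ.inf hS)
        (fun W hW hWS hWne => hmin W hW (hWS.trans inf_le_right) hWne)
      refine ⟨k + 1, fun j => if j ≤ k then B j else S, ?_, ?_, ?_, ?_⟩
      · intro a b hab
        dsimp only
        by_cases hb : b ≤ k
        · rw [if_pos hb, if_pos (hab.trans hb)]
          exact hB hab
        · rw [if_neg hb]
          by_cases ha : a ≤ k
          · rw [if_pos ha]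
            exact (hB ha).trans (hBk.le.trans inf_le_right)
          · rw [if_neg ha]
      · intro j
        dsimp only
        split_ifs
        · exact hBi j
        · exact hS
      · intro j hj
        by_cases hjk : j ≤ k
        · have he : (fun j => if j ≤ k then B j else S) j = B j := if_pos hjk
          rw [he]
          exact hBd j hjk
        · have he : (fun j => if j ≤ k then B j else S) j = S := if_neg hjk
          rw [he]
          have hj' : j = k + 1 := by omega
          have h1 := hBd k le_rfl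
          rw [hBk] at h1
          rw [hdim, h1, hj']
          ring
      · dsimp only
        rw [if_neg (by omega)]

/-- If `T` is semisimple, `S` invariant and every nonzero invariant `W ≤ S` contains an invariant
subspace of dimension exactly `d`, then `S` is the top of a chain of invariant subspaces of
dimensions `0, d, 2d, …`. -/
theorem exists_chain (T : End F V) (hss : T.IsSemisimple) (S : Submodule F V) (hS : IsInv T S)
    (d : ℕ) (hd : 1 ≤ d)
    (hmin : ∀ W : Submodule F V, IsInv T W → W ≤ S → W ≠ ⊥ →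
      ∃ Z : Submodule F V, IsInv T Z ∧ Z ≤ W ∧ finrank F Z = d) :
    ∃ (k : ℕ) (B : ℕ → Submodule F V), Monotone B ∧ (∀ j, IsInv T (B j)) ∧
      (∀ j, j ≤ k → finrank F (B j) = d * j) ∧ B k = S :=
  exists_chain_aux T hss d hd _ S le_rfl hS hmin

end Cfsg.Agent.Lib.Helper25.Elu
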