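import Cfsg.Agent.Lib.Helper25.Elu.Defs

/-! Ladder ELU, rung LISTK. -/

set_option autoImplicit false

namespace Cfsg.Agent.Lib.Helper25.Elu

open Module Polynomial

variable {F : Type*} [Field F] {V : Type*} [AddCommGroup V] [Module F V]

/-- if a product of polynomials kills `w ≠ 0` then one factor kills a nonzero vector of `F[T] w`. -/
theorem exists_factor_kill (T : End F V) (s : Multiset F[X]) (W : Submodule F V) (hW : IsInv T W)
    (w : V) (hwW : w ∈ W) (hw : w ≠ 0) (h0 : aeval T s.prod w = 0) :
    ∃ h ∈ s, ∃ w' ∈ W, w' ≠ 0 ∧ aeval T h w' = 0 := by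
  induction s using Multiset.induction_on with
  | empty =>
    rw [Multiset.prod_zero, map_one, Module.End.one_apply] at h0
    exact absurd h0 hw
  | cons h s ih =>
    by_cases h1 : aeval T s.prod w = 0
    · obtain ⟨g, hg, w', hw', hne, hk⟩ := ih h1
      exact ⟨g, Multiset.mem_cons_of_mem hg, w', hw', hne, hk⟩
    · refine ⟨h, Multiset.mem_cons_self h s, aeval T s.prod w, hW.aeval _ w hwW, h1, ?_⟩
      rw [Multiset.prod_cons, map_mul, Module.End.mul_apply] at h0
      exact h0

end Cfsg.Agent.Lib.Helper25.Elu
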