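import Cfsg.Agent.Lib.Helper25.Elu.Defs
import Cfsg.Agent.Lib.Helper25.Elu.LISTK

/-! Ladder ELU, rung MIN1. -/

set_option autoImplicit false

namespace Cfsg.Agent.Lib.Helper25.Elu

open Module Polynomial

variable {F : Type*} [Field F] {V : Type*} [AddCommGroup V] [Module F V] [FiniteDimensional F V]

/-- `X^r - a^r` splits over `F` when `r ∣ q - 1`: every nonzero invariant subspace contains an
eigenvector. -/
theorem exists_isInv_finrank_one [Fintype F] (T : End F V) {r : ℕ} [Fact r.Prime]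
    (hr1 : r ∣ Fintype.card F - 1) {a : F} (ha : a ≠ 0) (hT : T ^ r = a ^ r • 1)
    (W : Submodule F V) (hW : IsInv T W) (hne : W ≠ ⊥) :
    ∃ Z : Submodule F V, IsInv T Z ∧ Z ≤ W ∧ finrank F Z = 1 := by
  classical
  have hr : r.Prime := Fact.out
  obtain ⟨w, hwW, hw⟩ := Submodule.exists_mem_ne_zero_of_ne_bot hne
  have hcard : r ∣ Nat.card Fˣ := by
    rw [Nat.card_eq_fintype_card, Fintype.card_units]
    exact hr1
  obtain ⟨u, hu⟩ := exists_prime_orderOf_dvd_card' r hcard
  have hζ : IsPrimitiveRoot (u : F) r := by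
    have := IsPrimitiveRoot.orderOf (u : F)
    rwa [orderOf_units, hu] at this
  have hfac := X_pow_sub_C_eq_prod hζ hr.pos (rfl : a ^ r = a ^ r)
  have hk : aeval T (X ^ r - C (a ^ r) : F[X]) w = 0 := by
    have : aeval T (X ^ r - C (a ^ r) : F[X]) = 0 := by
      rw [map_sub, map_pow, aeval_X, aeval_C, hT, Algebra.algebraMap_eq_smul_one, sub_self]
    rw [this, LinearMap.zero_apply]
  rw [hfac, Finset.prod_eq_multiset_prod] at hk
  obtain ⟨h, hs, w', hw'W, hw', hk'⟩ := exists_factor_kill T _ W hW w hwW hw hk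
  obtain ⟨i, -, rfl⟩ := Multiset.mem_map.1 hs
  have hTw : T w' = ((u : F) ^ i * a) • w' := by
    rw [map_sub, aeval_X, aeval_C, LinearMap.sub_apply, Algebra.algebraMap_eq_smul_one,
      LinearMap.smul_apply, Module.End.one_apply] at hk'
    exact sub_eq_zero.1 hk'
  refine ⟨F ∙ w', ?_, ?_, finrank_span_singleton hw'⟩
  · intro v hv
    obtain ⟨t, rfl⟩ := Submodule.mem_span_singleton.1 hv
    rw [map_smul, hTw]
    exact Submodule.smul_mem _ _ (Submodule.smul_mem _ _ (Submodule.mem_span_singleton_self w'))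
  · rw [Submodule.span_singleton_le_iff_mem]
    exact hw'W

end Cfsg.Agent.Lib.Helper25.Elu
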