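import Cfsg.Agent.Lib.Helper25.Elu.Defs

/-! Ladder ELU, rung CYC. -/

set_option autoImplicit false

namespace Cfsg.Agent.Lib.Helper25.Elu

open Module Polynomial

variable {F : Type*} [Field F] {V : Type*} [AddCommGroup V] [Module F V]

/-- the cyclic subspace `span {T^j w : j < deg h}` when `h(T) w = 0`, `h` monic. -/
theorem exists_cyclic (T : End F V) (h : F[X]) (hm : h.Monic) (w : V) (hw : aeval T h w = 0) :
    ∃ Z : Submodule F V, IsInv T Z ∧ w ∈ Z ∧ Module.Finite F Z ∧ finrank F Z ≤ h.natDegree ∧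
      ∀ W : Submodule F V, IsInv T W → w ∈ W → Z ≤ W := by
  let φ : F[X] →ₗ[F] V := (LinearMap.applyₗ w) ∘ₗ (aeval T).toLinearMap
  have hφ : ∀ f, φ f = aeval T f w := fun f => rfl
  have hmod : ∀ f, φ f = φ (f %ₘ h) := by
    intro f
    conv_lhs => rw [← modByMonic_add_div f h]
    rw [map_add, hφ (h * _), mul_comm, map_mul, Module.End.mul_apply, hw, map_zero, add_zero]
  have hfin : Module.Finite F (degreeLT F h.natDegree) :=
    Module.Finite.equiv (degreeLTEquiv F h.natDegree).symm
  have hfr : finrank F (degreeLT F h.natDegree) = h.natDegree := by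
    rw [(degreeLTEquiv F h.natDegree).finrank_eq]; simp
  have hmem : ∀ f, φ f ∈ (degreeLT F h.natDegree).map φ := by
    intro f
    rw [hmod f]
    refine Submodule.mem_map_of_mem ?_
    rw [mem_degreeLT, ← degree_eq_natDegree hm.ne_zero]
    exact degree_modByMonic_lt f hm
  refine ⟨(degreeLT F h.natDegree).map φ, ?_, ?_, inferInstance, ?_, ?_⟩
  · rintro _ ⟨f, -, rfl⟩
    have : T (φ f) = φ (X * f) := by
      rw [hφ, hφ, map_mul, aeval_X, Module.End.mul_apply]
    rw [this]
    exact hmem _
  · have : w = φ 1 := by rw [hφ, map_one, Module.End.one_apply]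
    rw [this]
    exact hmem 1
  · exact (Submodule.finrank_map_le φ _).trans hfr.le
  · rintro W hW hwW _ ⟨f, -, rfl⟩
    exact hW.aeval f w hwW

end Cfsg.Agent.Lib.Helper25.Elu
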