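import Cfsg.Agent.Lib.Helper25.Elu.Defs

/-! Ladder ELU, rung ORD. -/

set_option autoImplicit false

namespace Cfsg.Agent.Lib.Helper25.Elu

open Module Polynomial

variable {F : Type*} [Field F] [Fintype F] {p : ℕ} [Fact p.Prime] [CharP F p] {r : ℕ} [Fact r.Prime]

/-- `|F| = p^f` is prime to `r ≠ p`. -/
theorem not_dvd_card (hrp : r ≠ p) : ¬ r ∣ Fintype.card F := by
  obtain ⟨f, hp, hf⟩ := FiniteField.card F p
  rw [hf]
  intro h
  exact hrp ((Nat.prime_dvd_prime_iff_eq Fact.out hp).1 ((Fact.out : r.Prime).dvd_of_dvd_pow h))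

theorem natCast_ne_zero (hrp : r ≠ p) : (r : F) ≠ 0 := by
  intro h
  rw [CharP.cast_eq_zero_iff F p] at h
  exact hrp ((Nat.prime_dvd_prime_iff_eq Fact.out Fact.out).1 h).symm

theorem isUnit_card (hrp : r ≠ p) : IsUnit ((Fintype.card F : ℕ) : ZMod r) := by
  rw [ZMod.isUnit_iff_coprime]
  exact (Nat.Coprime.symm ((Nat.Prime.coprime_iff_not_dvd Fact.out).2 (not_dvd_card hrp)))

theorem ordq_pos (hrp : r ≠ p) : 0 < ordq F r := by
  unfold ordq
  obtain ⟨u, hu⟩ := isUnit_card (F := F) hrp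
  rw [← hu, orderOf_units]
  exact orderOf_pos u

/-- `r ∣ q^j - 1 ↔ ord_r(q) ∣ j`. -/
theorem dvd_pow_sub_one_iff (hrp : r ≠ p) (j : ℕ) :
    r ∣ Fintype.card F ^ j - 1 ↔ ordq F r ∣ j := by
  unfold ordq
  rw [orderOf_dvd_iff_pow_eq_one]
  have h1 : 1 ≤ Fintype.card F ^ j := Nat.one_le_pow _ _ Fintype.card_pos
  rw [← ZMod.natCast_eq_zero_iff, Nat.cast_sub h1, sub_eq_zero]
  simp

theorem ordq_eq_one_iff (hrp : r ≠ p) : ordq F r = 1 ↔ r ∣ Fintype.card F - 1 := by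
  have := dvd_pow_sub_one_iff (F := F) hrp 1
  rw [pow_one] at this
  rw [this, Nat.dvd_one]

end Cfsg.Agent.Lib.Helper25.Elu
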