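import Cfsg.Agent.Lib.Helper25.Elu.Defs
import Cfsg.Agent.Lib.Helper25.Elu.ORD

/-! Ladder ELU, rung DIVI. -/

set_option autoImplicit false

namespace Cfsg.Agent.Lib.Helper25.Elu

open Module Polynomial

variable {F : Type*} [Field F] {V : Type*} [AddCommGroup V] [Module F V] [FiniteDimensional F V]

/-- `⟨T⟩` (order `r`) acts on `W` with the only fixed point `0`: `|W| ≡ 1 mod r`
(`Equiv.Perm.card_fixedPoints_modEq` / `MulAction.card_modEq_card_fixedPoints`). -/
theorem dvd_card_pow_finrank_sub_one [Fintype F] (T : End F V) {r : ℕ} [Fact r.Prime]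
    (hT : T ^ r = 1) (W : Submodule F V) (hW : IsInv T W) (hfix : ∀ w ∈ W, T w = w → w = 0) :
    r ∣ Fintype.card F ^ finrank F W - 1 := by
  classical
  have hfin : Finite W := Module.finite_of_finite F
  have := Fintype.ofFinite W
  let f : Function.End W := fun w => ⟨T w, hW w w.2⟩
  have hpow : ∀ j : ℕ, ∀ w : W, ((f ^ j) w : V) = (T ^ j) w := by
    intro j
    induction j with
    | zero => intro w; rfl
    | succ j ih =>
      intro w
      rw [pow_succ', pow_succ']
      change T ((f ^ j) w : V) = T ((T ^ j) w)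
      rw [ih]
  have hf : f ^ r ^ 1 = 1 := by
    rw [pow_one]
    funext w
    apply Subtype.ext
    rw [hpow, hT]
    rfl
  have h := Equiv.Perm.card_fixedPoints_modEq hf
  have hfp : Fintype.card (Function.fixedPoints f) = 1 := by
    rw [Fintype.card_eq_one_iff]
    refine ⟨⟨0, ?_⟩, ?_⟩
    · apply Subtype.ext
      change T 0 = 0
      exact map_zero T
    · rintro ⟨w, hw⟩
      apply Subtype.ext
      apply Subtype.ext
      have h1 : T w = w := congrArg Subtype.val hw
      exact hfix w w.2 h1
  have hcard : Fintype.card W = Fintype.card F ^ finrank F W := by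
    rw [← Nat.card_eq_fintype_card, ← Nat.card_eq_fintype_card, Module.natCard_eq_pow_finrank (K := F)]
  rw [hfp, hcard] at h
  exact (Nat.modEq_iff_dvd' (Nat.one_le_pow _ _ Fintype.card_pos)).mp h.symm

theorem ordq_dvd_finrank [Fintype F] {p : ℕ} [Fact p.Prime] [CharP F p] (T : End F V) {r : ℕ}
    [Fact r.Prime] (hrp : r ≠ p)
    (hT : T ^ r = 1) (W : Submodule F V) (hW : IsInv T W) (hfix : ∀ w ∈ W, T w = w → w = 0) :
    ordq F r ∣ finrank F W :=
  (dvd_pow_sub_one_iff hrp _).1 (dvd_card_pow_finrank_sub_one T hT W hW hfix)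

end Cfsg.Agent.Lib.Helper25.Elu
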