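import Cfsg.Agent.Lib.Helper25.Elu.Defs
import Cfsg.Agent.Lib.Helper25.Elu.ORD
import Cfsg.Agent.Lib.Helper25.Elu.DIVI
import Cfsg.Agent.Lib.Helper25.Elu.CYC
import Cfsg.Agent.Lib.Helper25.Elu.LISTK

/-! Ladder ELU, rung MINI. -/

set_option autoImplicit false

namespace Cfsg.Agent.Lib.Helper25.Elu

open Module Polynomial

variable {F : Type*} [Field F] {V : Type*} [AddCommGroup V] [Module F V] [FiniteDimensional F V]

/-- an irreducible factor of the `r`-th cyclotomic polynomial has degree `ord_r(q)`. -/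
theorem MINI_natDegree [Fintype F] {p : ℕ} [Fact p.Prime] [CharP F p] {r : ℕ} [Fact r.Prime]
    (hrp : r ≠ p) {h : F[X]} (hd : h ∣ cyclotomic r F) (hi : Irreducible h) :
    h.natDegree = ordq F r := by
  obtain ⟨f, hf⟩ := FiniteField.card F p
  have hcop : p.Coprime r :=
    (Nat.coprime_primes (Fact.out : p.Prime) (Fact.out : r.Prime)).2 (Ne.symm hrp)
  have h1 := natDegree_of_dvd_cyclotomic_of_irreducible (K := F) (p := p) (f := (f : ℕ)) (n := r)
    hf.2 hcop hd hi
  rw [h1, ordq, ← orderOf_units, ZMod.coe_unitOfCoprime, hf.2]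

/-- minimal invariant subspaces without fixed vectors have dimension `ord_r(q)`. -/
theorem exists_isInv_finrank_ordq [Fintype F] {p : ℕ} [Fact p.Prime] [CharP F p] (T : End F V)
    {r : ℕ} [Fact r.Prime] (hrp : r ≠ p) (hT : T ^ r = 1) (W : Submodule F V) (hW : IsInv T W)
    (hne : W ≠ ⊥) (hfix : ∀ w ∈ W, T w = w → w = 0) :
    ∃ Z : Submodule F V, IsInv T Z ∧ Z ≤ W ∧ finrank F Z = ordq F r := by
  classical
  obtain ⟨w, hwW, hw⟩ := Submodule.exists_mem_ne_zero_of_ne_bot hne
  have hΦ0 : aeval T (cyclotomic r F) w = 0 := by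
    apply hfix _ (hW.aeval _ w hwW)
    have h1 : aeval T ((X - 1) * cyclotomic r F) = 0 := by
      rw [mul_comm, cyclotomic_prime_mul_X_sub_one]
      simp [hT]
    have h2 := congrArg (fun S : End F V => S w) h1
    simp only [map_mul, map_sub, aeval_X, map_one, Module.End.mul_apply, LinearMap.sub_apply,
      Module.End.one_apply, LinearMap.zero_apply] at h2
    exact sub_eq_zero.1 h2
  have hmon : (cyclotomic r F).Monic := cyclotomic.monic r F
  have hprod : (UniqueFactorizationMonoid.normalizedFactors (cyclotomic r F)).prod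
      = cyclotomic r F := by
    rw [UniqueFactorizationMonoid.prod_normalizedFactors_eq hmon.ne_zero, hmon.normalize_eq_self]
  obtain ⟨h, hs, w', hw'W, hw', hk⟩ := exists_factor_kill T
    (UniqueFactorizationMonoid.normalizedFactors (cyclotomic r F)) W hW w hwW hw
    (by rw [hprod]; exact hΦ0)
  have hirr : Irreducible h := UniqueFactorizationMonoid.irreducible_of_normalized_factor h hs
  have hdvd : h ∣ cyclotomic r F := UniqueFactorizationMonoid.dvd_of_mem_normalizedFactors hs
  have hhm : h.Monic := by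
    rw [← UniqueFactorizationMonoid.normalize_normalized_factor h hs]
    exact monic_normalize hirr.ne_zero
  have hdeg := MINI_natDegree hrp hdvd hirr
  obtain ⟨Z, hZi, hwZ, hZf, hZd, hZmin⟩ := exists_cyclic T h hhm w' hk
  have hZW : Z ≤ W := hZmin W hW hw'W
  refine ⟨Z, hZi, hZW, ?_⟩
  have hdiv : ordq F r ∣ finrank F Z :=
    ordq_dvd_finrank T hrp hT Z hZi (fun v hv => hfix v (hZW hv))
  have hpos : 0 < finrank F Z := by
    rw [Module.finrank_pos_iff]
    exact ⟨⟨⟨w', hwZ⟩, 0, fun hh => hw' (congrArg Subtype.val hh)⟩⟩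
  exact le_antisymm (hdeg ▸ hZd) (Nat.le_of_dvd hpos hdiv)

end Cfsg.Agent.Lib.Helper25.Elu
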