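import Cfsg.Agent.Lib.Helper25.Elu.Defs

/-! Ladder ELU, rung SPLIT. -/

set_option autoImplicit false

namespace Cfsg.Agent.Lib.Helper25.Elu

open Module Polynomial

variable {F : Type*} [Field F] {V : Type*} [AddCommGroup V] [Module F V] [FiniteDimensional F V]

/-- `e = r⁻¹ ∑_{j<r} T^j` is a projection onto `C = ker (T - 1)` commuting with `T`; `D = ker e`. -/
theorem exists_split (T : End F V) {r : ℕ} (hr : (r : F) ≠ 0) (hT : T ^ r = 1) :
    ∃ D : Submodule F V, IsInv T D ∧ IsCompl (LinearMap.ker (T - 1)) D ∧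
      ∀ W : Submodule F V, IsInv T W →
        finrank F W = finrank F ↥(W ⊓ LinearMap.ker (T - 1)) + finrank F ↥(W ⊓ D) := by
  obtain ⟨S, hS⟩ : ∃ S : End F V, S = ∑ j ∈ Finset.range r, T ^ j := ⟨_, rfl⟩
  have h1 : (T - 1) * S = 0 := by rw [hS, mul_geom_sum, hT, sub_self]
  have h2 : S * (T - 1) = 0 := by rw [hS, geom_sum_mul, hT, sub_self]
  obtain ⟨e, he⟩ : ∃ e : End F V, e = (r : F)⁻¹ • S := ⟨_, rfl⟩
  have hpow : ∀ v, T v = v → ∀ j : ℕ, (T ^ j) v = v := by
    intro v hv j
    induction j with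
    | zero => simp
    | succ j ih => rw [pow_succ, Module.End.mul_apply, hv, ih]
  have hfix : ∀ v, T v = v → e v = v := by
    intro v hv
    rw [he, LinearMap.smul_apply, hS, LinearMap.sum_apply, Finset.sum_congr rfl (fun j _ => hpow v hv j),
      Finset.sum_const, Finset.card_range, ← Nat.cast_smul_eq_nsmul F, smul_smul, inv_mul_cancel₀ hr,
      one_smul]
  have hmemC : ∀ v, v ∈ LinearMap.ker (T - 1) ↔ T v = v := by
    intro v
    rw [LinearMap.mem_ker, LinearMap.sub_apply, Module.End.one_apply, sub_eq_zero]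
  have heC : ∀ v, T (e v) = e v := by
    intro v
    have := congrArg (fun f : End F V => f v) h1
    simp only [Module.End.mul_apply, LinearMap.sub_apply, Module.End.one_apply,
      LinearMap.zero_apply] at this
    rw [he, LinearMap.smul_apply, map_smul, sub_eq_zero.1 this]
  have heT : ∀ v, e (T v) = e v := by
    intro v
    have := congrArg (fun f : End F V => f v) h2
    simp only [Module.End.mul_apply, LinearMap.sub_apply, Module.End.one_apply,
      LinearMap.zero_apply, map_sub] at this
    rw [he, LinearMap.smul_apply, LinearMap.smul_apply, sub_eq_zero.1 this]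
  have hee : ∀ v, e (e v) = e v := fun v => hfix _ (heC v)
  have hdisj : Disjoint (LinearMap.ker (T - 1)) (LinearMap.ker e) := by
    rw [Submodule.disjoint_def]
    intro v hv hv'
    rw [← hfix v ((hmemC v).1 hv)]
    exact hv'
  refine ⟨LinearMap.ker e, ?_, ⟨hdisj, ?_⟩, ?_⟩
  · intro v hv
    rw [LinearMap.mem_ker] at hv ⊢
    rw [heT, hv]
  · rw [codisjoint_iff, eq_top_iff]
    intro v _
    have : v = e v + (v - e v) := by abel
    rw [this]
    refine Submodule.add_mem_sup ((hmemC _).2 (heC v)) ?_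
    rw [LinearMap.mem_ker, map_sub, hee, sub_self]
  · intro W hW
    have heW : ∀ v ∈ W, e v ∈ W := by
      intro v hv
      rw [he, LinearMap.smul_apply, hS, LinearMap.sum_apply]
      exact W.smul_mem _ (Submodule.sum_mem _ fun j _ => hW.pow j v hv)
    have hsup : (W ⊓ LinearMap.ker (T - 1)) ⊔ (W ⊓ LinearMap.ker e) = W := by
      apply le_antisymm (sup_le inf_le_left inf_le_left)
      intro v hv
      have : v = e v + (v - e v) := by abel
      rw [this]
      refine Submodule.add_mem_sup ⟨heW v hv, (hmemC _).2 (heC v)⟩ ⟨W.sub_mem hv (heW v hv), ?_⟩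
      rw [SetLike.mem_coe, LinearMap.mem_ker, map_sub, hee, sub_self]
    have hd : (W ⊓ LinearMap.ker (T - 1)) ⊓ (W ⊓ LinearMap.ker e) = ⊥ :=
      (hdisj.mono inf_le_right inf_le_right).eq_bot
    have := Submodule.finrank_sup_add_finrank_inf_eq (W ⊓ LinearMap.ker (T - 1)) (W ⊓ LinearMap.ker e)
    rw [hsup, hd, finrank_bot, add_zero] at this
    exact this

end Cfsg.Agent.Lib.Helper25.Elu
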