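import Cfsg.Agent.Lib.Helper25.Elu.Defs

/-! Ladder ELU, rung DIVR. -/

set_option autoImplicit false

namespace Cfsg.Agent.Lib.Helper25.Elu

open Module Polynomial

variable {F : Type*} [Field F] {V : Type*} [AddCommGroup V] [Module F V] [FiniteDimensional F V]

/-- `det (T|W)^r = c^(dim W)`; if `r ∤ dim W` then `c` is an `r`-th power (Bezout). -/
theorem dvd_finrank_of_not_pow (T : End F V) {r : ℕ} (hr : r.Prime) {c : F}
    (hc : ∀ a : F, a ^ r ≠ c) (hT : T ^ r = c • 1) (W : Submodule F V) (hW : IsInv T W) :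
    r ∣ finrank F W := by
  have hc0 : c ≠ 0 := by
    intro h
    exact hc 0 (by rw [h, zero_pow hr.ne_zero])
  replace hW : ∀ x ∈ W, T x ∈ W := hW
  have hS : (T.restrict hW : End F W) ^ r = c • 1 := by
    rw [Module.End.pow_restrict]
    ext x
    simp [hT]
  have hdet : (LinearMap.det (T.restrict hW : End F W)) ^ r = c ^ finrank F W := by
    rw [← map_pow, hS, LinearMap.det_smul, map_one, mul_one]
  by_contra hnd
  have hcop : Nat.Coprime r (finrank F W) := (Nat.Prime.coprime_iff_not_dvd hr).2 hnd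
  set δ := LinearMap.det (T.restrict hW : End F W) with hδ
  set d := finrank F W with hd
  have hbez : (r : ℤ) * Nat.gcdA r d + (d : ℤ) * Nat.gcdB r d = 1 := by
    have := Nat.gcd_eq_gcd_ab r d
    rw [hcop.gcd_eq_one] at this
    exact_mod_cast this.symm
  apply hc (c ^ (Nat.gcdA r d) * δ ^ (Nat.gcdB r d))
  have e1 : (δ ^ (Nat.gcdB r d)) ^ r = c ^ ((d : ℤ) * Nat.gcdB r d) := by
    rw [← zpow_natCast, ← zpow_mul, mul_comm, zpow_mul, zpow_natCast, hdet, zpow_mul, zpow_natCast]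
  have e2 : (c ^ (Nat.gcdA r d)) ^ r = c ^ ((r : ℤ) * Nat.gcdA r d) := by
    rw [← zpow_natCast, ← zpow_mul, mul_comm]
  rw [mul_pow, e1, e2, ← zpow_add₀ hc0, hbez, zpow_one]

end Cfsg.Agent.Lib.Helper25.Elu
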