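import Cfsg.Agent.Lib.Helper25.Elu.Defs
import Cfsg.Agent.Lib.Helper25.Elu.DIVR
import Cfsg.Agent.Lib.Helper25.Elu.CYC

/-! Ladder ELU, rung MINR. -/

set_option autoImplicit false

namespace Cfsg.Agent.Lib.Helper25.Elu

open Module Polynomial

variable {F : Type*} [Field F] {V : Type*} [AddCommGroup V] [Module F V] [FiniteDimensional F V]

theorem exists_isInv_finrank_r (T : End F V) {r : ℕ} (hr : r.Prime) {c : F}
    (hc : ∀ a : F, a ^ r ≠ c) (hT : T ^ r = c • 1) (W : Submodule F V) (hW : IsInv T W)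
    (hne : W ≠ ⊥) :
    ∃ Z : Submodule F V, IsInv T Z ∧ Z ≤ W ∧ finrank F Z = r := by
  obtain ⟨w, hwW, hw⟩ := Submodule.exists_mem_ne_zero_of_ne_bot hne
  have hm : (X ^ r - C c : F[X]).Monic := monic_X_pow_sub_C c hr.ne_zero
  have hk : aeval T (X ^ r - C c : F[X]) w = 0 := by
    have : aeval T (X ^ r - C c : F[X]) = 0 := by
      rw [map_sub, map_pow, aeval_X, aeval_C, hT, Algebra.algebraMap_eq_smul_one, sub_self]
    rw [this, LinearMap.zero_apply]
  obtain ⟨Z, hZi, hwZ, hZf, hZd, hZmin⟩ := exists_cyclic T _ hm w hk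
  rw [natDegree_X_pow_sub_C] at hZd
  refine ⟨Z, hZi, hZmin W hW hwW, ?_⟩
  have hdiv : r ∣ finrank F Z := dvd_finrank_of_not_pow T hr hc hT Z hZi
  have hpos : 0 < finrank F Z := by
    rw [Module.finrank_pos_iff]
    exact ⟨⟨⟨w, hwZ⟩, 0, fun hh => hw (congrArg Subtype.val hh)⟩⟩
  exact le_antisymm hZd (Nat.le_of_dvd hpos hdiv)

end Cfsg.Agent.Lib.Helper25.Elu
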