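import Mathlib

/-! Ladder ELU (S5949, S5950, S5951): basic definitions. -/

set_option autoImplicit false

namespace Cfsg.Agent.Lib.Helper25.Elu

open Module

section
variable {F : Type*} [Field F] {V : Type*} [AddCommGroup V] [Module F V]

/-- `W` is `T`-invariant. -/
def IsInv (T : End F V) (W : Submodule F V) : Prop := ∀ v ∈ W, T v ∈ W

/-- `T` has two monotone chains of invariant subspaces: `A j` of dimension `j` (`j ≤ c`) and
`B j` of dimension `d * j` (`j ≤ k`), with `A c` and `B k` disjoint. -/
def Grid (T : End F V) (c d k : ℕ) : Prop :=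
  ∃ A B : ℕ → Submodule F V, Monotone A ∧ Monotone B ∧ (∀ j, IsInv T (A j)) ∧ (∀ j, IsInv T (B j)) ∧
    (∀ j, j ≤ c → finrank F (A j) = j) ∧ (∀ j, j ≤ k → finrank F (B j) = d * j) ∧
    Disjoint (A c) (B k)

theorem isInv_iff_map_le {T : End F V} {W : Submodule F V} : IsInv T W ↔ W.map T ≤ W := by
  rw [Submodule.map_le_iff_le_comap]; rfl

theorem isInv_bot (T : End F V) : IsInv T ⊥ := by
  intro v hv
  rw [Submodule.mem_bot] at hv
  rw [hv, map_zero]
  exact Submodule.zero_mem _

theorem isInv_top (T : End F V) : IsInv T ⊤ := fun _ _ => Submodule.mem_top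

theorem IsInv.inf {T : End F V} {W W' : Submodule F V} (h : IsInv T W) (h' : IsInv T W') :
    IsInv T (W ⊓ W') := fun v hv => ⟨h v hv.1, h' v hv.2⟩

theorem IsInv.sup {T : End F V} {W W' : Submodule F V} (h : IsInv T W) (h' : IsInv T W') :
    IsInv T (W ⊔ W') := by
  intro v hv
  obtain ⟨a, ha, b, hb, rfl⟩ := Submodule.mem_sup.1 hv
  rw [map_add]
  exact Submodule.add_mem _ (Submodule.mem_sup_left (h a ha)) (Submodule.mem_sup_right (h' b hb))

theorem IsInv.smul {T : End F V} {W : Submodule F V} (h : IsInv T W) (a : F) : IsInv (a • T) W :=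
  fun v hv => by
    rw [LinearMap.smul_apply]
    exact W.smul_mem a (h v hv)

theorem IsInv.of_smul {T : End F V} {W : Submodule F V} {a : F} (ha : a ≠ 0) (h : IsInv (a • T) W) :
    IsInv T W := by
  have := h.smul a⁻¹
  rwa [smul_smul, inv_mul_cancel₀ ha, one_smul] at this

theorem IsInv.pow {T : End F V} {W : Submodule F V} (h : IsInv T W) (j : ℕ) : IsInv (T ^ j) W := by
  induction j with
  | zero => intro v hv; simpa using hv
  | succ j ih =>
    intro v hv
    rw [pow_succ', Module.End.mul_apply]
    exact h _ (ih v hv)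

theorem IsInv.aeval {T : End F V} {W : Submodule F V} (h : IsInv T W) (f : Polynomial F) :
    IsInv (Polynomial.aeval T f) W := by
  intro v hv
  rw [Polynomial.aeval_eq_sum_range, LinearMap.sum_apply]
  refine Submodule.sum_mem _ fun j _ => ?_
  rw [LinearMap.smul_apply]
  exact W.smul_mem _ (h.pow j v hv)

theorem IsInv.sub_one {T : End F V} {W : Submodule F V} (h : IsInv T W) : IsInv (T - 1) W :=
  fun v hv => by
    rw [LinearMap.sub_apply, Module.End.one_apply]
    exact W.sub_mem (h v hv) hv

theorem IsInv.of_sub_one {T : End F V} {W : Submodule F V} (h : IsInv (T - 1) W) : IsInv T W :=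
  fun v hv => by
    have := W.add_mem (h v hv) hv
    rwa [LinearMap.sub_apply, Module.End.one_apply, sub_add_cancel] at this

theorem Grid.smul {T : End F V} {c d k : ℕ} (h : Grid T c d k) (a : F) : Grid (a • T) c d k := by
  obtain ⟨A, B, hA, hB, hAi, hBi, h1, h2, h3⟩ := h
  exact ⟨A, B, hA, hB, fun j => (hAi j).smul a, fun j => (hBi j).smul a, h1, h2, h3⟩

end

/-- the number of `m`-dimensional subspaces of `F^n` -/
noncomputable def gr (F : Type*) [Field F] (n m : ℕ) : ℕ :=
  Nat.card {W : Submodule F (Fin n → F) // finrank F W = m}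

/-- the multiplicative order of `|F|` modulo `r` -/
noncomputable def ordq (F : Type*) [Fintype F] (r : ℕ) : ℕ :=
  orderOf ((Fintype.card F : ℕ) : ZMod r)

/-- the arithmetic condition of case (i) -/
def Cond1 (q r n : ℕ) : Prop :=
  padicValNat r n ≤ padicValNat r (q - 1) ∧ (r = 2 → Even n → q % 4 = 1)

end Cfsg.Agent.Lib.Helper25.Elu
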