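import Cfsg.Agent.Lib.Helper25.Elu.Defs

/-! Ladder ELU, rung DET1. -/

set_option autoImplicit false

namespace Cfsg.Agent.Lib.Helper25.Elu

open Module Polynomial

variable {F : Type*} [Field F] {V : Type*} [AddCommGroup V] [Module F V]

/-- `(det T)^r = 1 = (det T)^(q-1)` and `gcd (r, q-1) = 1`. -/
theorem det_eq_one_of_pow [Fintype F] (T : End F V) {r : ℕ} (hr : r.Prime) (hT : T ^ r = 1)
    (h : ¬ r ∣ Fintype.card F - 1) : LinearMap.det T = 1 := by
  have h1 : (LinearMap.det T) ^ r = 1 := by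
    rw [← map_pow, hT, map_one]
  have h0 : LinearMap.det T ≠ 0 := by
    intro h0
    rw [h0, zero_pow hr.ne_zero] at h1
    exact zero_ne_one h1
  have h2 : (LinearMap.det T) ^ (Fintype.card F - 1) = 1 :=
    FiniteField.pow_card_sub_one_eq_one _ h0
  have h3 : (LinearMap.det T) ^ (r.gcd (Fintype.card F - 1)) = 1 := pow_gcd_eq_one.mpr ⟨h1, h2⟩
  rwa [(Nat.Prime.coprime_iff_not_dvd hr).mpr h, pow_one] at h3

/-- the `r`-th power map is onto when `r ∤ q - 1`. -/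
theorem exists_pow_eq_of_not_dvd [Fintype F] {r : ℕ} (hr : r.Prime)
    (h : ¬ r ∣ Fintype.card F - 1) (c : F) : ∃ a : F, a ^ r = c := by
  by_cases hc : c = 0
  · exact ⟨0, by rw [hc, zero_pow hr.ne_zero]⟩
  have hb := Nat.gcd_eq_gcd_ab r (Fintype.card F - 1)
  rw [(Nat.Prime.coprime_iff_not_dvd hr).mpr h] at hb
  refine ⟨c ^ (Nat.gcdA r (Fintype.card F - 1)), ?_⟩
  have h2 : c ^ (Fintype.card F - 1) = 1 := FiniteField.pow_card_sub_one_eq_one _ hc
  have e : c = c ^ ((r : ℤ) * Nat.gcdA r (Fintype.card F - 1))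
      * c ^ (((Fintype.card F - 1 : ℕ) : ℤ) * Nat.gcdB r (Fintype.card F - 1)) := by
    rw [← zpow_add₀ hc, ← hb]
    simp
  rw [zpow_mul c ((Fintype.card F - 1 : ℕ) : ℤ), zpow_natCast, h2, one_zpow, mul_one] at e
  rw [← zpow_natCast, ← zpow_mul, mul_comm]
  exact e.symm

end Cfsg.Agent.Lib.Helper25.Elu
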