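import Cfsg.Agent.Lib.Helper25.Elu.Defs

/-! Ladder ELU, rung ARITH. -/

set_option autoImplicit false

namespace Cfsg.Agent.Lib.Helper25.Elu

open Module Polynomial

theorem ar_le_of_mul {i k N ν : ℕ} (hν : ν < i) (hk : i * k ≤ i * N + ν) : k ≤ N := by
  by_contra hlt
  have h1 : N + 1 ≤ k := by omega
  have h2 : i * (N + 1) ≤ i * k := Nat.mul_le_mul_left i h1
  rw [Nat.mul_add, Nat.mul_one] at h2
  omega

theorem ar49 {i k n m : ℕ} (hi : 1 ≤ i) (hk : i * k ≤ n) (hmn : m ≤ n) (h : m % i ≤ n % i) :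
    ∃ a b, a ≤ n - i * k ∧ b ≤ k ∧ a + i * b = m := by
  have hm := Nat.div_add_mod m i
  have hn := Nat.div_add_mod n i
  have hν := Nat.mod_lt n hi
  generalize m / i = M at *
  generalize m % i = μ at *
  generalize n / i = N at *
  generalize n % i = ν at *
  have hkN : k ≤ N := ar_le_of_mul hν (by omega)
  have h1 : i * k ≤ i * N := Nat.mul_le_mul_left i hkN
  by_cases hMk : M ≤ k
  · exact ⟨μ, M, by omega, hMk, by omega⟩
  · have h2 : i * k ≤ i * M := Nat.mul_le_mul_left i (by omega)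
    exact ⟨m - i * k, k, by omega, le_rfl, by omega⟩

theorem ar49' {i n m a b : ℕ} (hi : 1 ≤ i) (hm : m = a + i * b) (ha : a ≤ n % i)
    (h : n % i < m) : i ≤ m ∧ m % i ≤ n % i := by
  have hν := Nat.mod_lt n hi
  have h1 : m % i = a := by
    rw [hm, Nat.add_mul_mod_self_left, Nat.mod_eq_of_lt (by omega)]
  refine ⟨?_, by omega⟩
  have hb : 1 ≤ b := by
    by_contra hb
    have : b = 0 := by omega
    subst this
    omega
  have h2 : i * 1 ≤ i * b := Nat.mul_le_mul_left i hb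
  omega

theorem ar51 {i k n m : ℕ} (hi : 1 ≤ i) (hk : i * k ≤ n) (hmn : 2 * m < n)
    (h : 2 * (m % i) ≤ n % i) :
    ∃ a b a' b', a ≤ a' ∧ a' ≤ n - i * k ∧ b ≤ b' ∧ b' ≤ k ∧ a + i * b = m ∧
      a' + i * b' = n - m := by
  have hm := Nat.div_add_mod m i
  have hn := Nat.div_add_mod n i
  have hν := Nat.mod_lt n hi
  generalize m / i = M at *
  generalize m % i = μ at *
  generalize n / i = N at *
  generalize n % i = ν at *
  have hkN : k ≤ N := ar_le_of_mul hν (by omega)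
  have hMN : 2 * M ≤ N := by
    apply ar_le_of_mul hν
    have : i * (2 * M) = 2 * (i * M) := by ring
    omega
  by_cases hMk : M ≤ k
  · by_cases hk2 : k ≤ N - M
    · obtain ⟨s, rfl⟩ : ∃ s, N = M + k + s := ⟨N - M - k, by omega⟩
      simp only [Nat.mul_add] at *
      exact ⟨μ, M, (ν - μ) + i * s, k, by omega, by omega, hMk, le_rfl, by omega, by omega⟩
    · obtain ⟨s, rfl⟩ : ∃ s, N = M + s := ⟨N - M, by omega⟩
      have h3 : i * k ≤ i * (M + s) := Nat.mul_le_mul_left i hkN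
      simp only [Nat.mul_add] at *
      exact ⟨μ, M, ν - μ, s, by omega, by omega, by omega, by omega, by omega, by omega⟩
  · obtain ⟨s, rfl⟩ : ∃ s, M = k + s := ⟨M - k, by omega⟩
    obtain ⟨t, rfl⟩ : ∃ t, N = 2 * (k + s) + t := ⟨N - 2 * (k + s), by omega⟩
    have e1 : i * (2 * (k + s) + t) = 2 * (i * k) + 2 * (i * s) + i * t := by ring
    have e2 : i * (k + s) = i * k + i * s := by ring
    have e3 : i * (s + t + k) = i * s + i * t + i * k := by ring
    have e4 : i * (s + t) = i * s + i * t := by ring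
    rw [e1] at hn
    rw [e2] at hm
    exact ⟨μ + i * s, k, (ν - μ) + i * (s + t), k, by omega, by omega, le_rfl, le_rfl, by omega,
      by omega⟩

theorem ar51' {i n m a₁ b₁ a₂ b₂ : ℕ} (hi : 1 ≤ i) (hmn : 2 * m < n) (hm : m = a₁ + i * b₁)
    (hm' : n - m = a₂ + i * b₂) (h12 : a₁ ≤ a₂) (h2 : a₂ ≤ n % i)
    (h : n % i < m ∨ (n - m) % i < m) : i ≤ m ∧ 2 * (m % i) ≤ n % i := by
  have hν := Nat.mod_lt n hi
  have h1 : m % i = a₁ := by
    rw [hm, Nat.add_mul_mod_self_left, Nat.mod_eq_of_lt (by omega)]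
  have h3 : (n - m) % i = a₂ := by
    rw [hm', Nat.add_mul_mod_self_left, Nat.mod_eq_of_lt (by omega)]
  have hn : n = (a₁ + a₂) + i * (b₁ + b₂) := by
    rw [Nat.mul_add]
    omega
  have h4 : n % i = (a₁ + a₂) % i := by
    rw [hn, Nat.add_mul_mod_self_left]
  have h5 : n % i = a₁ + a₂ := by
    by_cases h6 : a₁ + a₂ < i
    · rw [h4, Nat.mod_eq_of_lt h6]
    · exfalso
      have h7 : (a₁ + a₂) % i = a₁ + a₂ - i := by
        rw [Nat.mod_eq_sub_mod (by omega), Nat.mod_eq_of_lt (by omega)]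
      omega
  refine ⟨?_, by omega⟩
  have hb : 1 ≤ b₁ := by
    by_contra hb
    have : b₁ = 0 := by omega
    subst this
    omega
  have h8 : i * 1 ≤ i * b₁ := Nat.mul_le_mul_left i hb
  omega

end Cfsg.Agent.Lib.Helper25.Elu
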