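import Cfsg.Agent.Lib.Helper25.Elu.Defs
import Cfsg.Agent.Lib.Helper17.FrameCount

/-! Ladder ELU, rung CNT1. -/

set_option autoImplicit false

namespace Cfsg.Agent.Lib.Helper25.Elu

open Module Polynomial

/-- fibre the linearly independent `m`-tuples (`card_linearIndependent`) over their span. -/
theorem gr_mul_prod {F : Type*} [Field F] [Fintype F] {n m : ℕ} (hmn : m ≤ n) :
    gr F n m * ∏ j : Fin m, (Fintype.card F ^ m - Fintype.card F ^ (j : ℕ)) =
      ∏ j : Fin m, (Fintype.card F ^ n - Fintype.card F ^ (j : ℕ)) := by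
  have h1 := Cfsg.Agent.Lib.Helper17.card_isoFrame_eq_mul (F := F) (V := Fin n → F)
    (fun _ _ => (0 : F)) m (fun _ _ _ _ _ _ => rfl)
  have h2 : Nat.card (Cfsg.Agent.Lib.Helper17.IsoFrame (F := F) (V := Fin n → F)
      (fun _ _ => (0 : F)) m) = Nat.card {s : Fin m → (Fin n → F) // LinearIndependent F s} := by
    apply Nat.card_congr
    exact Equiv.subtypeEquivRight (fun s => ⟨fun h => h.1, fun h => ⟨h, fun _ _ => rfl⟩⟩)
  have h3 : Nat.card {W : Submodule F (Fin n → F) // Module.finrank F W = m ∧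
      ∀ u ∈ W, ∀ v ∈ W, (0 : F) = 0} = gr F n m := by
    apply Nat.card_congr
    exact Equiv.subtypeEquivRight (fun s => ⟨fun h => h.1, fun h => ⟨h, fun _ _ _ _ => rfl⟩⟩)
  have h4 := card_linearIndependent (K := F) (V := Fin n → F) (k := m) (by simpa using hmn)
  rw [h2, h3, h4] at h1
  rw [← h1]
  simp

end Cfsg.Agent.Lib.Helper25.Elu
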