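import Cfsg.Agent.Lib.Helper25.Elu.Defs
import Cfsg.Agent.Lib.Helper25.Elu.ORD
import Cfsg.Agent.Lib.Helper25.Elu.DIVI
import Cfsg.Agent.Lib.Helper25.Elu.SPLIT

/-! Ladder ELU, rung EXI0. -/

set_option autoImplicit false

namespace Cfsg.Agent.Lib.Helper25.Elu

open Module Polynomial

/-- `r ∣ q^i - 1 ∣ |GL_i(q)|` (`Matrix.card_GL_field`), Cauchy; SPLIT + DIVI force `C = 0`. -/
theorem exists_end_fixedfree {F : Type*} [Field F] [Fintype F] {p : ℕ} [Fact p.Prime] [CharP F p]
    {r : ℕ} [Fact r.Prime] (hrp : r ≠ p) :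
    ∃ T : End F (Fin (ordq F r) → F), T ^ r = 1 ∧ LinearMap.ker (T - 1) = ⊥ := by
  classical
  set i := ordq F r with hi
  have hipos : 0 < i := ordq_pos hrp
  have hdvd : r ∣ Fintype.card F ^ i - 1 := (dvd_pow_sub_one_iff hrp i).2 dvd_rfl
  have hcard : r ∣ Nat.card (Matrix.GeneralLinearGroup (Fin i) F) := by
    rw [Matrix.card_GL_field]
    refine hdvd.trans ?_
    have := Finset.dvd_prod_of_mem (fun k : Fin i => Fintype.card F ^ i - Fintype.card F ^ (k : ℕ))
      (Finset.mem_univ (⟨0, hipos⟩ : Fin i))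
    simpa using this
  obtain ⟨g, hg⟩ := exists_prime_orderOf_dvd_card' r hcard
  set T : End F (Fin i → F) := Matrix.toLinAlgEquiv' (g : Matrix (Fin i) (Fin i) F) with hTdef
  have hT : T ^ r = 1 := by
    rw [hTdef, ← map_pow, ← Units.val_pow_eq_pow_val, ← hg, pow_orderOf_eq_one, Units.val_one,
      map_one]
  have hT1 : T ≠ 1 := by
    intro h1
    have h2 : (g : Matrix (Fin i) (Fin i) F) = 1 := by
      apply Matrix.toLinAlgEquiv'.injective
      rw [map_one]
      exact h1
    have h3 : g = 1 := Units.ext h2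
    rw [h3, orderOf_one] at hg
    exact (Fact.out : r.Prime).one_lt.ne hg
  refine ⟨T, hT, ?_⟩
  obtain ⟨D, hDi, hCD, hsplit⟩ := exists_split T (natCast_ne_zero hrp) hT
  have hfix : ∀ w ∈ D, T w = w → w = 0 := by
    intro w hw hTw
    have hwC : w ∈ LinearMap.ker (T - 1) := by
      rw [LinearMap.mem_ker, LinearMap.sub_apply, Module.End.one_apply, hTw, sub_self]
    have := hCD.disjoint.le_bot (show w ∈ LinearMap.ker (T - 1) ⊓ D from ⟨hwC, hw⟩)
    simpa using this
  have hdiv : i ∣ finrank F D := ordq_dvd_finrank T hrp hT D hDi hfix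
  have hsum : finrank F (LinearMap.ker (T - 1)) + finrank F D = i := by
    have := Submodule.finrank_add_eq_of_isCompl hCD
    simpa using this
  rcases Nat.eq_zero_or_pos (finrank F D) with h0 | hpos
  · exfalso
    apply hT1
    have hD : D = ⊥ := Submodule.finrank_eq_zero.1 h0
    have hC : LinearMap.ker (T - 1) = ⊤ := by
      have := hCD.sup_eq_top
      rwa [hD, sup_bot_eq] at this
    have := LinearMap.ker_eq_top.1 hC
    exact sub_eq_zero.1 this
  · have hle := Nat.le_of_dvd hpos hdiv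
    apply Submodule.finrank_eq_zero.1
    omega

end Cfsg.Agent.Lib.Helper25.Elu
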