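import Cfsg.Agent.Lib.Helper25.Elu.Defs
import Cfsg.Agent.Lib.Helper25.Elu.ORD
import Cfsg.Agent.Lib.Helper25.Elu.EXI0

/-! Ladder ELU, rung EXI. -/

set_option autoImplicit false

namespace Cfsg.Agent.Lib.Helper25.Elu

open Module Polynomial

theorem EXI_transport {F : Type*} [Field F] {V V' : Type*} [AddCommGroup V] [Module F V]
    [AddCommGroup V'] [Module F V'] (e : V ≃ₗ[F] V') (T : End F V) {r : ℕ} (hT : T ^ r = 1) :
    (e.conjRingEquiv T) ^ r = 1 ∧
      finrank F (LinearMap.ker (e.conjRingEquiv T - 1)) = finrank F (LinearMap.ker (T - 1)) := by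
  refine ⟨by rw [← map_pow, hT, map_one], ?_⟩
  have h : LinearMap.ker (e.conjRingEquiv T - 1) = (LinearMap.ker (T - 1)).map e.toLinearMap := by
    ext x
    simp only [LinearMap.mem_ker, LinearMap.sub_apply, Module.End.one_apply, Submodule.mem_map,
      LinearEquiv.coe_coe]
    constructor
    · intro hx
      refine ⟨e.symm x, ?_, by simp⟩
      have h1 : e (T (e.symm x)) = x := by
        have : (e.conjRingEquiv T) x = e (T (e.symm x)) := rfl
        rw [← this]
        exact sub_eq_zero.1 hx
      apply sub_eq_zero.2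
      apply e.injective
      rw [h1]
      simp
    · rintro ⟨y, hy, rfl⟩
      have : (e.conjRingEquiv T) (e y) = e (T (e.symm (e y))) := rfl
      rw [this, LinearEquiv.symm_apply_apply, sub_eq_zero.1 hy, sub_self]
  rw [h]
  exact LinearEquiv.finrank_map_eq e _

theorem EXI_prod {F : Type*} [Field F] {V V' : Type*} [AddCommGroup V] [Module F V]
    [AddCommGroup V'] [Module F V'] [FiniteDimensional F V] [FiniteDimensional F V']
    (T : End F V) (T' : End F V') {r : ℕ}
    (hT : T ^ r = 1) (hT' : T' ^ r = 1) :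
    (LinearMap.prodMap T T' : End F (V × V')) ^ r = 1 ∧
      finrank F (LinearMap.ker ((LinearMap.prodMap T T' : End F (V × V')) - 1)) =
        finrank F (LinearMap.ker (T - 1)) + finrank F (LinearMap.ker (T' - 1)) := by
  have hpow : ∀ k : ℕ, (LinearMap.prodMap T T' : End F (V × V')) ^ k
      = LinearMap.prodMap (T ^ k) (T' ^ k) := by
    intro k
    induction k with
    | zero =>
      rw [pow_zero, pow_zero, pow_zero]
      apply LinearMap.ext
      rintro ⟨x, y⟩
      rfl
    | succ k ih => rw [pow_succ, pow_succ, pow_succ, ih, LinearMap.prodMap_mul]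
  constructor
  · rw [hpow, hT, hT']
    apply LinearMap.ext
    rintro ⟨x, y⟩
    rfl
  · have h1 : (LinearMap.prodMap T T' : End F (V × V')) - 1 = LinearMap.prodMap (T - 1) (T' - 1) := by
      apply LinearMap.ext
      rintro ⟨x, y⟩
      rfl
    rw [h1, LinearMap.ker_prodMap]
    have e : ↥((LinearMap.ker (T - 1)).prod (LinearMap.ker (T' - 1))) ≃ₗ[F]
        (↥(LinearMap.ker (T - 1)) × ↥(LinearMap.ker (T' - 1))) :=
      { toFun := fun x => (⟨x.1.1, x.2.1⟩, ⟨x.1.2, x.2.2⟩)
        invFun := fun y => ⟨(y.1.1, y.2.1), ⟨y.1.2, y.2.2⟩⟩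
        map_add' := fun _ _ => rfl
        map_smul' := fun _ _ => rfl
        left_inv := fun _ => rfl
        right_inv := fun _ => rfl }
    rw [e.finrank_eq, Module.finrank_prod]

/-- induction `n → n + i` with `LinearMap.prodMap` and a linear equivalence
`(Fin n → F) × (Fin i → F) ≃ (Fin (n + i) → F)`; for `n < i` take `T = 1`. -/
theorem exists_end_fix {F : Type*} [Field F] [Fintype F] {p : ℕ} [Fact p.Prime] [CharP F p]
    {r : ℕ} [Fact r.Prime] (hrp : r ≠ p) (n : ℕ) :
    ∃ T : End F (Fin n → F), T ^ r = 1 ∧ finrank F (LinearMap.ker (T - 1)) = n % ordq F r := by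
  induction n using Nat.strong_induction_on with
  | _ n ih =>
    by_cases hlt : n < ordq F r
    · refine ⟨1, one_pow r, ?_⟩
      rw [sub_self, LinearMap.ker_zero, finrank_top, Nat.mod_eq_of_lt hlt]
      simp
    · push Not at hlt
      have hipos : 0 < ordq F r := ordq_pos hrp
      obtain ⟨T', hT', hk'⟩ := ih (n - ordq F r) (by omega)
      obtain ⟨T0, hT0, hk0⟩ := exists_end_fixedfree (F := F) hrp
      obtain ⟨h1, h2⟩ := EXI_prod T' T0 hT' hT0
      have e : ((Fin (n - ordq F r) → F) × (Fin (ordq F r) → F)) ≃ₗ[F] (Fin n → F) := by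
        apply LinearEquiv.ofFinrankEq
        rw [Module.finrank_prod]
        simp
        omega
      obtain ⟨h3, h4⟩ := EXI_transport e _ h1
      refine ⟨_, h3, ?_⟩
      rw [h4, h2, hk', hk0, finrank_bot, add_zero]
      conv_rhs => rw [← Nat.sub_add_cancel hlt, Nat.add_mod_right]

end Cfsg.Agent.Lib.Helper25.Elu
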