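import Cfsg.Agent.Lib.Helper25.Elu.Defs
import Cfsg.Agent.Lib.Helper25.Elu.ORD
import Cfsg.Agent.Lib.Helper25.Elu.EXI
import Cfsg.Agent.Lib.Helper25.Elu.DET1
import Cfsg.Agent.Lib.Helper25.Elu.SPLIT
import Cfsg.Agent.Lib.Helper25.Elu.DIVI

/-! Ladder ELU, rung DERI. -/

set_option autoImplicit false

namespace Cfsg.Agent.Lib.Helper25.Elu

open Module Polynomial

/-- the extremal element of case `i ≥ 2`. -/
theorem der_i {F : Type*} [Field F] [Fintype F] {p : ℕ} [Fact p.Prime] [CharP F p] {r : ℕ}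
    [Fact r.Prime] (hrp : r ≠ p) (h2 : 2 ≤ ordq F r) {n : ℕ} (hin : ordq F r ≤ n) :
    ∃ T : End F (Fin n → F), LinearMap.det T = 1 ∧ (∃ c : F, T ^ r = c • 1) ∧
      (∀ c : F, T ≠ c • 1) ∧ ∃ C : Submodule F (Fin n → F), finrank F C = n % ordq F r ∧
        ∀ W : Submodule F (Fin n → F), IsInv T W →
          ∃ b, finrank F W = finrank F ↥(W ⊓ C) + ordq F r * b := by
  have hr : r.Prime := Fact.out
  have hrF : (r : F) ≠ 0 := natCast_ne_zero hrp
  have hr1 : ¬ r ∣ Fintype.card F - 1 := by
    intro h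
    have := (ordq_eq_one_iff hrp).2 h
    omega
  obtain ⟨T, hT, hfix⟩ := exists_end_fix (F := F) hrp n
  obtain ⟨D, hD, hCD, hsplit⟩ := exists_split T hrF hT
  have key : ∀ W : Submodule F (Fin n → F), IsInv T W →
      ∃ b, finrank F W = finrank F ↥(W ⊓ LinearMap.ker (T - 1)) + ordq F r * b := by
    intro W hW
    have hdvd : ordq F r ∣ finrank F ↥(W ⊓ D) := by
      apply ordq_dvd_finrank T hrp hT (W ⊓ D) (hW.inf hD)
      intro w hw hTw
      have h1 : w ∈ LinearMap.ker (T - 1) := by
        rw [LinearMap.mem_ker, LinearMap.sub_apply, Module.End.one_apply, hTw, sub_self]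
      exact (Submodule.disjoint_def.1 hCD.disjoint) w h1 hw.2
    obtain ⟨b, hb⟩ := hdvd
    exact ⟨b, by rw [hsplit W hW, hb]⟩
  have hfr : finrank F (Fin n → F) = n := by simp
  refine ⟨T, det_eq_one_of_pow T hr hT hr1, ⟨1, by rw [hT, one_smul]⟩, ?_,
    LinearMap.ker (T - 1), hfix, key⟩
  intro c hc
  have hall : ∀ v : Fin n → F, v ∈ LinearMap.ker (T - 1) := by
    intro v
    by_cases hv : v = 0
    · rw [hv]; exact Submodule.zero_mem _
    have hinv : IsInv T (Submodule.span F {v}) := by
      intro w hw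
      rw [hc, LinearMap.smul_apply, Module.End.one_apply]
      exact Submodule.smul_mem _ c hw
    obtain ⟨b, hb⟩ := key _ hinv
    rw [finrank_span_singleton hv] at hb
    have hb0 : b = 0 := by
      rcases Nat.eq_zero_or_pos b with h | h
      · exact h
      · have : ordq F r * 1 ≤ ordq F r * b := Nat.mul_le_mul_left _ h
        omega
    rw [hb0, mul_zero, add_zero] at hb
    have heq : Submodule.span F {v} ⊓ LinearMap.ker (T - 1) = Submodule.span F {v} := by
      apply Submodule.eq_of_le_of_finrank_eq inf_le_left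
      rw [← hb, finrank_span_singleton hv]
    have : v ∈ Submodule.span F {v} ⊓ LinearMap.ker (T - 1) := by
      rw [heq]; exact Submodule.mem_span_singleton_self v
    exact this.2
  have htop : LinearMap.ker (T - 1) = ⊤ := by
    rw [eq_top_iff]; intro v _; exact hall v
  rw [htop, finrank_top, hfr] at hfix
  have := Nat.mod_lt n (by omega : 0 < ordq F r)
  omega

end Cfsg.Agent.Lib.Helper25.Elu
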