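import Cfsg.Agent.Lib.Helper25.Elu.Defs

/-! Ladder ELU, rung DETSPLIT. -/

set_option autoImplicit false

namespace Cfsg.Agent.Lib.Helper25.Elu

open Module Polynomial

variable {F : Type*} [Field F] {V : Type*} [AddCommGroup V] [Module F V] [FiniteDimensional F V]

/-- `Submodule.prodEquivOfIsCompl`, `LinearMap.det_conj`, `LinearMap.det_prodMap`. -/
theorem det_of_isCompl (T : End F V) (Z Q : Submodule F V) (h : IsCompl Z Q) (hZ : IsInv T Z)
    (hQ : IsInv T Q) :
    LinearMap.det T = LinearMap.det (T.restrict hZ) * LinearMap.det (T.restrict hQ) := by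
  rw [← LinearMap.det_prodMap,
    ← LinearMap.det_conj (LinearMap.prodMap (T.restrict hZ) (T.restrict hQ))
      (Submodule.prodEquivOfIsCompl Z Q h)]
  congr 1
  apply LinearMap.ext
  intro v
  obtain ⟨x, rfl⟩ := (Submodule.prodEquivOfIsCompl Z Q h).surjective v
  simp [Submodule.coe_prodEquivOfIsCompl']
  rfl

end Cfsg.Agent.Lib.Helper25.Elu
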