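import Cfsg.Agent.Lib.Helper25.Elu.Defs

/-! Ladder ELU, rung DETZ. -/

set_option autoImplicit false

namespace Cfsg.Agent.Lib.Helper25.Elu

open Module Polynomial

variable {F : Type*} [Field F] {V : Type*} [AddCommGroup V] [Module F V] [FiniteDimensional F V]

/-- `X^r - c` is irreducible (`X_pow_sub_C_irreducible_of_prime`), so it is the minimal polynomial,
and (degree `r = dim V`) the characteristic polynomial; `LinearMap.det_eq_sign_charpoly_coeff`. -/
theorem det_of_finrank_eq (T : End F V) {r : ℕ} (hr : r.Prime) {c : F}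
    (hc : ∀ a : F, a ^ r ≠ c) (hT : T ^ r = c • 1) (hV : finrank F V = r) :
    LinearMap.det T = (-1) ^ (r + 1) * c := by
  have hnt : Nontrivial V := Module.nontrivial_of_finrank_pos (R := F) (by rw [hV]; exact hr.pos)
  have hirr : Irreducible (X ^ r - C c : F[X]) := X_pow_sub_C_irreducible_of_prime hr hc
  have hmon : (X ^ r - C c : F[X]).Monic := monic_X_pow_sub_C c hr.ne_zero
  have hae : aeval T (X ^ r - C c : F[X]) = 0 := by
    rw [map_sub, map_pow, aeval_X, aeval_C, hT, Algebra.algebraMap_eq_smul_one, sub_self]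
  have hmin : (X ^ r - C c : F[X]) = minpoly F T :=
    minpoly.eq_of_irreducible_of_monic hirr hae hmon
  have hdvd : (X ^ r - C c : F[X]) ∣ T.charpoly := by
    rw [hmin]
    exact LinearMap.minpoly_dvd_charpoly T
  have hchar : T.charpoly = X ^ r - C c := by
    apply Polynomial.eq_of_monic_of_dvd_of_natDegree_le hmon T.charpoly_monic hdvd
    rw [LinearMap.charpoly_natDegree, hV, natDegree_X_pow_sub_C]
  rw [LinearMap.det_eq_sign_charpoly_coeff, hchar, hV, coeff_sub, coeff_X_pow, coeff_C_zero,
    if_neg hr.ne_zero.symm]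
  ring

end Cfsg.Agent.Lib.Helper25.Elu
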