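import Cfsg.Agent.Lib.Helper25.Elu.Defs
import Cfsg.Agent.Lib.Helper25.Elu.SS
import Cfsg.Agent.Lib.Helper25.Elu.MINR
import Cfsg.Agent.Lib.Helper25.Elu.DETSPLIT
import Cfsg.Agent.Lib.Helper25.Elu.DETZ

/-! Ladder ELU, rung DETC. -/

set_option autoImplicit false

namespace Cfsg.Agent.Lib.Helper25.Elu

open Module Polynomial

theorem restrict_pow_eq {F : Type*} [Field F] {V : Type*} [AddCommGroup V] [Module F V]
    (T : End F V) {r : ℕ} {c : F} (hT : T ^ r = c • 1) (W : Submodule F V)
    (hW : ∀ x ∈ W, T x ∈ W) : (T.restrict hW : End F W) ^ r = c • 1 := by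
  rw [Module.End.pow_restrict]
  ext x
  simp [hT]

/-- induction on the dimension: split off an invariant `Z` of dimension `r` (MINR, `W = ⊤`) with an
invariant complement (SS). -/
theorem det_of_not_pow {F : Type*} [Field F] {r : ℕ} (hr : r.Prime) (hrF : (r : F) ≠ 0) {c : F}
    (hc : ∀ a : F, a ^ r ≠ c) {V : Type*} [AddCommGroup V] [Module F V] [FiniteDimensional F V]
    (T : End F V) (hT : T ^ r = c • 1) :
    ∃ k, finrank F V = r * k ∧ LinearMap.det T = ((-1) ^ (r + 1) * c) ^ k := by
  have hc0 : c ≠ 0 := by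
    intro h
    exact hc 0 (by rw [h, zero_pow hr.ne_zero])
  induction hN : finrank F V using Nat.strong_induction_on generalizing V with
  | _ N ih =>
    by_cases hV : N = 0
    · refine ⟨0, by rw [hV, mul_zero], ?_⟩
      rw [pow_zero]
      exact LinearMap.det_eq_one_of_finrank_eq_zero (by rw [hN, hV]) T
    · have hne : (⊤ : Submodule F V) ≠ ⊥ := by
        intro h
        apply hV
        rw [← hN, ← finrank_top F V, h, finrank_bot]
      obtain ⟨Z, hZ, -, hZr⟩ := exists_isInv_finrank_r T hr hc hT ⊤ (isInv_top T) hne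
      obtain ⟨Q, hQ, hZQ⟩ := exists_isInv_isCompl (isSemisimple_of_pow T hrF hc0 hT) hZ
      have hdet := det_of_isCompl T Z Q hZQ hZ hQ
      have hsum := Submodule.finrank_add_eq_of_isCompl hZQ
      have hZ' : ∀ x ∈ Z, T x ∈ Z := hZ
      have hQ' : ∀ x ∈ Q, T x ∈ Q := hQ
      have h1 : LinearMap.det (T.restrict hZ') = (-1) ^ (r + 1) * c :=
        det_of_finrank_eq (T.restrict hZ') hr hc (restrict_pow_eq T hT Z hZ') hZr
      obtain ⟨k, hk, h2⟩ := ih (finrank F Q) (by have := hr.pos; omega) (T.restrict hQ')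
        (restrict_pow_eq T hT Q hQ') rfl
      refine ⟨k + 1, ?_, ?_⟩
      · rw [← hN, ← hsum, hZr, hk, Nat.mul_succ, add_comm]
      · have h3 : LinearMap.det T =
            LinearMap.det (T.restrict hZ') * LinearMap.det (T.restrict hQ') := hdet
        rw [h3, h1, h2]
        exact (pow_succ' _ k).symm

end Cfsg.Agent.Lib.Helper25.Elu
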