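import Cfsg.Agent.Lib.Helper25.Elu.Defs

/-! Ladder ELU, rung EXR. -/

set_option autoImplicit false

namespace Cfsg.Agent.Lib.Helper25.Elu

open Module Polynomial

/-- e.g. multiplication by `AdjoinRoot.root` on `Fin (n / r) → AdjoinRoot (X^r - C c)`, transported
by a linear equivalence; or an explicit weighted shift. -/
theorem exists_end_pow_eq (F : Type*) [Field F] (n r : ℕ) (hr : 0 < r) (hrn : r ∣ n) (c : F) :
    ∃ T : End F (Fin n → F), T ^ r = c • 1 := by
  obtain ⟨k, rfl⟩ := hrn
  have hne : (X ^ r - C c : F[X]) ≠ 0 := (monic_X_pow_sub_C c hr.ne').ne_zero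
  let A := AdjoinRoot (X ^ r - C c : F[X])
  have hfd : Module.Finite F A := (AdjoinRoot.powerBasis hne).finite
  have hA : finrank F A = r := by
    rw [(AdjoinRoot.powerBasis hne).finrank, AdjoinRoot.powerBasis_dim, natDegree_X_pow_sub_C]
  have hM : finrank F (Fin k → A) = finrank F (Fin (r * k) → F) := by
    rw [Module.finrank_pi_fintype, Module.finrank_fintype_fun_eq_card, Fintype.card_fin]
    simp [hA, mul_comm]
  let e : (Fin k → A) ≃ₗ[F] (Fin (r * k) → F) := LinearEquiv.ofFinrankEq _ _ hM
  let T' : End F (Fin k → A) := Algebra.lsmul F F (Fin k → A) (AdjoinRoot.root (X ^ r - C c : F[X]))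
  have hT' : T' ^ r = c • 1 := by
    change (Algebra.lsmul F F (Fin k → A) (AdjoinRoot.root (X ^ r - C c : F[X]))) ^ r = c • 1
    rw [← map_pow, root_X_pow_sub_C_pow, ← AdjoinRoot.algebraMap_eq, AlgHom.commutes,
      Algebra.algebraMap_eq_smul_one]
  refine ⟨e.conj T', ?_⟩
  apply LinearMap.ext
  intro v
  have hpow : ∀ j : ℕ, (e.conj T') ^ j = e.conj (T' ^ j) := by
    intro j
    induction j with
    | zero =>
      apply LinearMap.ext
      intro w
      simp [LinearEquiv.conj_apply]
    | succ j ih =>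
      rw [pow_succ, ih, pow_succ]
      apply LinearMap.ext
      intro w
      simp [LinearEquiv.conj_apply]
  rw [hpow, hT']
  simp [LinearEquiv.conj_apply]

end Cfsg.Agent.Lib.Helper25.Elu
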