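import Cfsg.Agent.Lib.Helper25.Elu.Defs

/-! Ladder ELU, rung POWCRIT. -/

set_option autoImplicit false

namespace Cfsg.Agent.Lib.Helper25.Elu

open Module Polynomial

variable {F : Type*} [Field F] [Fintype F]

/-- Euler's criterion for `r`-th powers (`Fˣ` is cyclic of order `q - 1`). -/
theorem pow_crit {r : ℕ} (hr : 0 < r) (hr1 : r ∣ Fintype.card F - 1) (c : F) (hc : c ≠ 0) :
    (∃ a : F, a ^ r = c) ↔ c ^ ((Fintype.card F - 1) / r) = 1 := by
  classical
  obtain ⟨m, hm⟩ := hr1
  have hq : 0 < Fintype.card F - 1 := by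
    have := Fintype.one_lt_card (α := F)
    omega
  have hm0 : 0 < m := by
    rcases Nat.eq_zero_or_pos m with h | h
    · rw [h, mul_zero] at hm
      omega
    · exact h
  rw [hm, Nat.mul_div_cancel_left _ hr]
  constructor
  · rintro ⟨a, rfl⟩
    have ha : a ≠ 0 := by
      rintro rfl
      exact hc (zero_pow hr.ne')
    rw [← pow_mul, ← hm]
    exact FiniteField.pow_card_sub_one_eq_one a ha
  · intro h
    obtain ⟨g, hg⟩ := IsCyclic.exists_generator (α := Fˣ)
    have hord : orderOf g = Fintype.card F - 1 := by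
      rw [orderOf_eq_card_of_forall_mem_zpowers hg, Nat.card_eq_fintype_card, Fintype.card_units]
    have h1 : Units.mk0 c hc ∈ Submonoid.powers g := mem_powers_iff_mem_zpowers.mpr (hg _)
    obtain ⟨t, ht⟩ := (Submonoid.mem_powers_iff _ _).mp h1
    have h2 : g ^ (t * m) = 1 := by
      rw [pow_mul, ht]
      apply Units.ext
      simpa using h
    have h3 : r * m ∣ t * m := by
      rw [← hm, ← hord]
      exact orderOf_dvd_of_pow_eq_one h2
    obtain ⟨k, hk⟩ := Nat.dvd_of_mul_dvd_mul_right hm0 h3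
    refine ⟨((g ^ k : Fˣ) : F), ?_⟩
    have h4 : (g ^ k) ^ r = Units.mk0 c hc := by
      rw [← pow_mul, mul_comm, ← hk, ht]
    have := congrArg (fun u : Fˣ => (u : F)) h4
    simpa using this

end Cfsg.Agent.Lib.Helper25.Elu
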