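import Cfsg.Agent.Lib.Helper25.Elu.Defs
import Cfsg.Agent.Lib.Helper25.Elu.POWCRIT

/-! Ladder ELU, rung NUMC. -/

set_option autoImplicit false

namespace Cfsg.Agent.Lib.Helper25.Elu

open Module Polynomial

variable {F : Type*} [Field F] [Fintype F]

theorem NUMC_caseA {r : ℕ} [Fact r.Prime] (hr1 : r ∣ Fintype.card F - 1) {n : ℕ} (hn : 0 < n)
    (h : padicValNat r (Fintype.card F - 1) < padicValNat r n) :
    r ∣ n ∧ ∃ c : F, (∀ a : F, a ^ r ≠ c) ∧ ((-1) ^ (r + 1) * c) ^ (n / r) = 1 := by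
  classical
  have hr : r.Prime := Fact.out
  have hq1 : 0 < Fintype.card F - 1 := by
    have := Fintype.one_lt_card (α := F)
    omega
  set a := padicValNat r (Fintype.card F - 1) with ha
  have ha1 : 1 ≤ a := one_le_padicValNat_of_dvd hq1.ne' hr1
  have hdn : r ^ (a + 1) ∣ n := (padicValNat_dvd_iff_le hn.ne').2 h
  have hrn : r ∣ n := (dvd_pow_self r (Nat.succ_ne_zero a)).trans hdn
  have hdq : r ^ a ∣ Fintype.card F - 1 := pow_padicValNat_dvd
  have hndq : ¬ r ^ (a + 1) ∣ Fintype.card F - 1 := pow_succ_padicValNat_not_dvd hq1.ne'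
  obtain ⟨g, hg⟩ := IsCyclic.exists_generator (α := Fˣ)
  have hog : orderOf g = Fintype.card F - 1 := by
    rw [orderOf_eq_card_of_forall_mem_zpowers hg, Nat.card_eq_fintype_card, Fintype.card_units]
  obtain ⟨t, ht⟩ := hdq
  have htpos : 0 < t := by
    rcases Nat.eq_zero_or_pos t with h0 | h0
    · rw [h0, mul_zero] at ht
      omega
    · exact h0
  set u : Fˣ := g ^ t with hu
  have hou : orderOf u = r ^ a := by
    rw [hu, orderOf_pow_of_dvd htpos.ne' (by rw [hog, ht]; exact dvd_mul_left _ _), hog, ht]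
    exact Nat.mul_div_cancel _ htpos
  refine ⟨hrn, (u : F), ?_, ?_⟩
  · intro b hb
    have h1 := (pow_crit hr.pos hr1 (u : F) u.ne_zero).1 ⟨b, hb⟩
    have h2 : u ^ ((Fintype.card F - 1) / r) = 1 := by
      apply Units.ext
      rw [Units.val_pow_eq_pow_val, h1, Units.val_one]
    have h3 := orderOf_dvd_of_pow_eq_one h2
    rw [hou] at h3
    apply hndq
    rw [pow_succ]
    obtain ⟨s, hs⟩ := hr1
    rw [hs, Nat.mul_div_cancel_left _ hr.pos] at h3
    rw [hs, mul_comm r s]
    exact Nat.mul_dvd_mul_right h3 r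
  · have h1 : r ^ a ∣ n / r := by
      obtain ⟨s, hs⟩ := hdn
      rw [hs, pow_succ, mul_assoc, mul_comm r s, ← mul_assoc, Nat.mul_div_cancel _ hr.pos]
      exact dvd_mul_right _ _
    have h2 : (u : F) ^ (n / r) = 1 := by
      rw [← Units.val_pow_eq_pow_val, orderOf_dvd_iff_pow_eq_one.1 (hou ▸ h1), Units.val_one]
    rw [mul_pow, h2, mul_one, ← pow_mul]
    apply Even.neg_one_pow
    rcases hr.eq_two_or_odd' with h2' | hodd
    · apply Even.mul_left
      have : r ∣ n / r := (dvd_pow_self r (by omega)).trans h1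
      rw [h2'] at this
      exact (even_iff_two_dvd).2 (h2' ▸ this)
    · apply Even.mul_right
      exact hodd.add_one

theorem exists_nonpow {r : ℕ} [Fact r.Prime] (hr1 : r ∣ Fintype.card F - 1) {n : ℕ} (hn : 0 < n)
    (h : ¬ Cond1 (Fintype.card F) r n) :
    r ∣ n ∧ ∃ c : F, (∀ a : F, a ^ r ≠ c) ∧ ((-1) ^ (r + 1) * c) ^ (n / r) = 1 := by
  by_cases hA : padicValNat r (Fintype.card F - 1) < padicValNat r n
  · exact NUMC_caseA hr1 hn hA
  · have hB : ¬ (r = 2 → Even n → Fintype.card F % 4 = 1) := by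
      intro hB
      exact h ⟨not_lt.1 hA, hB⟩
    push Not at hB
    obtain ⟨h2, hev, hq⟩ := hB
    subst h2
    have hq3 : Fintype.card F % 4 = 3 := by
      have := Fintype.one_lt_card (α := F)
      omega
    refine ⟨even_iff_two_dvd.1 hev, -1, ?_, by norm_num⟩
    intro a ha
    have : IsSquare (-1 : F) := ⟨a, by rw [← ha, sq]⟩
    exact (FiniteField.isSquare_neg_one_iff.1 this) hq3

end Cfsg.Agent.Lib.Helper25.Elu
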