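import Cfsg.Agent.Lib.Helper25.Elu.Defs
import Cfsg.Agent.Lib.Helper25.Elu.ORD
import Cfsg.Agent.Lib.Helper25.Elu.NUMC
import Cfsg.Agent.Lib.Helper25.Elu.EXR
import Cfsg.Agent.Lib.Helper25.Elu.DETC
import Cfsg.Agent.Lib.Helper25.Elu.DIVR

/-! Ladder ELU, rung DERR. -/

set_option autoImplicit false

namespace Cfsg.Agent.Lib.Helper25.Elu

open Module Polynomial

/-- the derangement of case `i = 1`. -/
theorem der_r {F : Type*} [Field F] [Fintype F] {p : ℕ} [Fact p.Prime] [CharP F p] {r : ℕ}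
    [Fact r.Prime] (hrp : r ≠ p) (h1 : ordq F r = 1) {n : ℕ} (hn : 0 < n)
    (hC : ¬ Cond1 (Fintype.card F) r n) :
    ∃ T : End F (Fin n → F), LinearMap.det T = 1 ∧ (∃ c : F, T ^ r = c • 1) ∧
      (∀ c : F, T ≠ c • 1) ∧ ∀ W : Submodule F (Fin n → F), IsInv T W → r ∣ finrank F W := by
  have hr : r.Prime := Fact.out
  have hrF : (r : F) ≠ 0 := natCast_ne_zero hrp
  have hr1 : r ∣ Fintype.card F - 1 := (ordq_eq_one_iff hrp).1 h1
  obtain ⟨hrn, c, hc, hdet⟩ := exists_nonpow hr1 hn hC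
  obtain ⟨T, hT⟩ := exists_end_pow_eq F n r hr.pos hrn c
  obtain ⟨k, hk, hd⟩ := det_of_not_pow hr hrF hc T hT
  have hfr : finrank F (Fin n → F) = n := by simp
  rw [hfr] at hk
  have hkn : k = n / r := by
    rw [hk, Nat.mul_div_cancel_left _ hr.pos]
  refine ⟨T, by rw [hd, hkn, hdet], ⟨c, hT⟩, ?_, fun W hW => dvd_finrank_of_not_pow T hr hc hT W hW⟩
  intro b hb
  apply hc b
  rw [hb, _root_.smul_pow, one_pow] at hT
  have : Nontrivial (Fin n → F) := by
    apply Module.nontrivial_of_finrank_pos (R := F)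
    rw [hfr]; exact hn
  obtain ⟨v, hv⟩ := exists_ne (0 : Fin n → F)
  have h2 := congrArg (fun f : End F (Fin n → F) => f v) hT
  simp only [LinearMap.smul_apply, Module.End.one_apply] at h2
  exact smul_left_injective F hv h2

end Cfsg.Agent.Lib.Helper25.Elu
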