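import Cfsg.Agent.Lib.Helper25.Elu.Defs

/-! Ladder ELU, rung GRV. -/

set_option autoImplicit false

namespace Cfsg.Agent.Lib.Helper25.Elu

open Module Polynomial

/-- transport along a linear equivalence `V ≃ Fin n → F` (`Submodule.orderIsoMapComap`,
`LinearEquiv.finrank_map_eq`). -/
theorem card_subspaces_eq_gr {F : Type*} [Field F] {V : Type*} [AddCommGroup V] [Module F V]
    [FiniteDimensional F V] (m : ℕ) :
    Nat.card {W : Submodule F V // finrank F W = m} = gr F (finrank F V) m := by
  unfold gr
  let e : V ≃ₗ[F] (Fin (finrank F V) → F) := (Module.finBasis F V).equivFun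
  apply Nat.card_congr
  exact
    { toFun := fun W => ⟨W.1.map (e : V →ₗ[F] (Fin (finrank F V) → F)), by
        rw [LinearEquiv.finrank_map_eq]
        exact W.2⟩
      invFun := fun W => ⟨W.1.map (e.symm : (Fin (finrank F V) → F) →ₗ[F] V), by
        rw [LinearEquiv.finrank_map_eq]
        exact W.2⟩
      left_inv := fun W => Subtype.ext (by
        change (W.1.map (e : V →ₗ[F] (Fin (finrank F V) → F))).map
          (e.symm : (Fin (finrank F V) → F) →ₗ[F] V) = W.1
        rw [← Submodule.map_comp]
        simp)
      right_inv := fun W => Subtype.ext (by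
        change (W.1.map (e.symm : (Fin (finrank F V) → F) →ₗ[F] V)).map
          (e : V →ₗ[F] (Fin (finrank F V) → F)) = W.1
        rw [← Submodule.map_comp]
        simp) }

end Cfsg.Agent.Lib.Helper25.Elu
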