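import Cfsg.Agent.Lib.Helper25.Elu.Defs
import Cfsg.Agent.Lib.Helper25.Elu.GRV

/-! Ladder ELU, rung DUAL. -/

set_option autoImplicit false

namespace Cfsg.Agent.Lib.Helper25.Elu

open Module Polynomial

/-- `Subspace.orderIsoFiniteDimensional` / `Submodule.dualAnnihilator` and GRV. -/
theorem gr_symm {F : Type*} [Field F] {n m : ℕ} (hmn : m ≤ n) : gr F n (n - m) = gr F n m := by
  have hn : finrank F (Fin n → F) = n := by simp
  have h1 := card_subspaces_eq_gr (F := F) (V := Dual F (Fin n → F)) (n - m)
  rw [Subspace.dual_finrank_eq, hn] at h1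
  rw [← h1, gr]
  apply Nat.card_congr
  refine
    { toFun := fun Φ => ⟨Φ.1.dualCoannihilator, ?_⟩
      invFun := fun W => ⟨W.1.dualAnnihilator, ?_⟩
      left_inv := fun Φ => Subtype.ext Subspace.dualCoannihilator_dualAnnihilator_eq
      right_inv := fun W => Subtype.ext Subspace.dualAnnihilator_dualCoannihilator_eq }
  · have h2 := Subspace.finrank_add_finrank_dualCoannihilator_eq Φ.1
    rw [Φ.2, hn] at h2
    omega
  · have h2 := Subspace.finrank_add_finrank_dualAnnihilator_eq W.1
    rw [W.2, hn] at h2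
    omega

end Cfsg.Agent.Lib.Helper25.Elu
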