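import Cfsg.Agent.Lib.Helper25.Elu.Defs
import Cfsg.Agent.Lib.Helper25.Elu.GRV
import Cfsg.Agent.Lib.Helper50.Count

/-! Ladder ELU, rung FLAG. -/

set_option autoImplicit false

namespace Cfsg.Agent.Lib.Helper25.Elu

open Module Polynomial

/-- subspaces of `V` inside `W` of dimension `a` are the subspaces of `↥W` of dimension `a` -/
noncomputable def subLeEquiv {F : Type*} [Field F] {V : Type*} [AddCommGroup V] [Module F V]
    (W : Submodule F V) (a : ℕ) :
    {U : Submodule F V // U ≤ W ∧ finrank F U = a} ≃ {U' : Submodule F W // finrank F U' = a} where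
  toFun U := ⟨U.1.comap W.subtype, by
    rw [LinearEquiv.finrank_eq (Submodule.comapSubtypeEquivOfLe U.2.1)]
    exact U.2.2⟩
  invFun U' := ⟨U'.1.map W.subtype, Submodule.map_subtype_le W U'.1, by
    rw [Submodule.finrank_map_subtype_eq]
    exact U'.2⟩
  left_inv U := by
    apply Subtype.ext
    change Submodule.map W.subtype (Submodule.comap W.subtype U.1) = U.1
    rw [Submodule.map_comap_subtype, inf_eq_right]
    exact U.2.1
  right_inv U' := by
    apply Subtype.ext
    exact Submodule.comap_map_eq_of_injective (Submodule.injective_subtype W) U'.1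

/-- choose `W` of dimension `b`, then `U ≤ W` (a subspace of `↥W`) of dimension `a`. -/
theorem card_flags {F : Type*} [Field F] [Finite F] (n a b : ℕ) :
    Nat.card {P : Submodule F (Fin n → F) × Submodule F (Fin n → F) //
        P.1 ≤ P.2 ∧ finrank F ↥P.1 = a ∧ finrank F ↥P.2 = b} = gr F n b * gr F b a := by
  have : Finite (Submodule F (Fin n → F)) :=
    Finite.of_injective (fun W => (W : Set (Fin n → F))) SetLike.coe_injective
  have h1 := Cfsg.Agent.Lib.Helper50.card_pairs (α := Submodule F (Fin n → F))
    (β := Submodule F (Fin n → F)) (fun W => finrank F W = b)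
    (fun W U => U ≤ W ∧ finrank F U = a) (gr F b a) (by
      intro W hW
      rw [Nat.card_congr (subLeEquiv W a), card_subspaces_eq_gr, hW])
  rw [gr, ← h1]
  apply Nat.card_congr
  refine
    { toFun := fun P => ⟨(P.1.2, P.1.1), P.2.2.2, P.2.1, P.2.2.1⟩
      invFun := fun P => ⟨(P.1.2, P.1.1), P.2.2.1, P.2.2.2, P.2.1⟩
      left_inv := fun P => rfl
      right_inv := fun P => rfl }

end Cfsg.Agent.Lib.Helper25.Elu
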