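import Cfsg.Agent.Lib.Helper25.Elu.Defs
import Cfsg.Agent.Lib.Helper25.Elu.SS
import Cfsg.Agent.Lib.Helper25.Elu.CHAIN
import Cfsg.Agent.Lib.Helper25.Elu.MIN1

/-! Ladder ELU, rung GRID1. -/

set_option autoImplicit false

namespace Cfsg.Agent.Lib.Helper25.Elu

open Module Polynomial

variable {F : Type*} [Field F] {V : Type*} [AddCommGroup V] [Module F V] [FiniteDimensional F V]

/-- CHAIN with `S = ⊤`, `d = 1` (MIN1); `B = fun _ => ⊥`. -/
theorem grid_of_pow_eq_pow [Fintype F] (T : End F V) {r : ℕ} [Fact r.Prime] (hrF : (r : F) ≠ 0)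
    (hr1 : r ∣ Fintype.card F - 1) {a : F} (ha : a ≠ 0) (hT : T ^ r = a ^ r • 1) (d : ℕ) :
    Grid T (finrank F V) d 0 := by
  have hss : T.IsSemisimple := isSemisimple_of_pow T hrF (pow_ne_zero r ha) hT
  obtain ⟨k, A, hA, hAi, hAd, hAk⟩ := exists_chain T hss ⊤ (isInv_top T) 1 le_rfl
    (fun W hW _ hne => exists_isInv_finrank_one T hr1 ha hT W hW hne)
  have hk : k = finrank F V := by
    have h1 := hAd k le_rfl
    rw [hAk, finrank_top, one_mul] at h1
    exact h1.symm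
  refine ⟨A, fun _ => ⊥, hA, monotone_const, hAi, fun _ => isInv_bot T, ?_, ?_, disjoint_bot_right⟩
  · intro j hj
    rw [hAd j (hk ▸ hj), one_mul]
  · intro j hj
    rw [Nat.le_zero.1 hj, mul_zero]
    exact finrank_bot F V

end Cfsg.Agent.Lib.Helper25.Elu
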