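import Cfsg.Agent.Lib.Helper25.Elu.Defs
import Cfsg.Agent.Lib.Helper25.Elu.ORD
import Cfsg.Agent.Lib.Helper25.Elu.SS
import Cfsg.Agent.Lib.Helper25.Elu.CHAIN
import Cfsg.Agent.Lib.Helper25.Elu.SPLIT
import Cfsg.Agent.Lib.Helper25.Elu.MINI

/-! Ladder ELU, rung GRIDI. -/

set_option autoImplicit false

namespace Cfsg.Agent.Lib.Helper25.Elu

open Module Polynomial

variable {F : Type*} [Field F] {V : Type*} [AddCommGroup V] [Module F V] [FiniteDimensional F V]

/-- SPLIT gives `C = ker (T - 1)`, `D`; CHAIN on `C` (`d = 1`, lines) and on `D` (`d = i`, MINI). -/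
theorem grid_of_pow_eq_one [Fintype F] {p : ℕ} [Fact p.Prime] [CharP F p] (T : End F V) {r : ℕ}
    [Fact r.Prime] (hrp : r ≠ p) (hT : T ^ r = 1) :
    ∃ k, ordq F r * k ≤ finrank F V ∧ Grid T (finrank F V - ordq F r * k) (ordq F r) k := by
  have hss : T.IsSemisimple :=
    isSemisimple_of_pow T (natCast_ne_zero (F := F) hrp) one_ne_zero (by rw [hT, one_smul])
  obtain ⟨D, hD, hCD, -⟩ := exists_split T (natCast_ne_zero (F := F) hrp) hT
  have hfixC : ∀ v, v ∈ LinearMap.ker (T - 1) ↔ T v = v := by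
    intro v
    rw [LinearMap.mem_ker, LinearMap.sub_apply, Module.End.one_apply, sub_eq_zero]
  have hC : IsInv T (LinearMap.ker (T - 1)) := by
    intro v hv
    rw [(hfixC v).1 hv]
    exact hv
  obtain ⟨c0, A, hAm, hAi, hAf, hAc⟩ := exists_chain T hss (LinearMap.ker (T - 1)) hC 1 le_rfl (by
    intro W _ hWC hne
    obtain ⟨w, hwW, hw⟩ := Submodule.exists_mem_ne_zero_of_ne_bot hne
    refine ⟨Submodule.span F {w}, ?_, ?_, finrank_span_singleton hw⟩
    · intro v hv
      obtain ⟨a, rfl⟩ := Submodule.mem_span_singleton.1 hv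
      rw [map_smul, (hfixC w).1 (hWC hwW)]
      exact Submodule.smul_mem _ _ (Submodule.mem_span_singleton_self w)
    · rw [Submodule.span_singleton_le_iff_mem]
      exact hwW)
  obtain ⟨k, B, hBm, hBi, hBf, hBk⟩ := exists_chain T hss D hD (ordq F r) (ordq_pos (F := F) hrp) (by
    intro W hW hWD hne
    apply exists_isInv_finrank_ordq T hrp hT W hW hne
    intro w hw hTw
    have h1 : w ∈ LinearMap.ker (T - 1) ⊓ D := ⟨(hfixC w).2 hTw, hWD hw⟩
    rw [hCD.inf_eq_bot] at h1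
    exact (Submodule.mem_bot F).1 h1)
  have hsum := Submodule.finrank_add_eq_of_isCompl hCD
  have h1 := hAf c0 le_rfl
  have h2 := hBf k le_rfl
  rw [hAc, one_mul] at h1
  rw [hBk] at h2
  have hc : finrank F V - ordq F r * k = c0 := by omega
  refine ⟨k, by omega, A, B, hAm, hBm, hAi, hBi, ?_, hBf, ?_⟩
  · intro j hj
    rw [hc] at hj
    rw [hAf j hj, one_mul]
  · rw [hc, hAc, hBk]
    exact hCD.disjoint

end Cfsg.Agent.Lib.Helper25.Elu
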