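import Cfsg.Agent.Lib.Helper25.Elu.Defs
import Cfsg.Agent.Lib.Helper25.Elu.SS
import Cfsg.Agent.Lib.Helper25.Elu.CHAIN
import Cfsg.Agent.Lib.Helper25.Elu.MINR

/-! Ladder ELU, rung GRIDR. -/

set_option autoImplicit false

namespace Cfsg.Agent.Lib.Helper25.Elu

open Module Polynomial

variable {F : Type*} [Field F] {V : Type*} [AddCommGroup V] [Module F V] [FiniteDimensional F V]

/-- CHAIN with `S = ⊤`, `d = r` (MINR); `A = fun _ => ⊥`. -/
theorem grid_of_not_pow (T : End F V) {r : ℕ} (hr : r.Prime) (hrF : (r : F) ≠ 0) {c : F}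
    (hc : ∀ a : F, a ^ r ≠ c) (hT : T ^ r = c • 1) :
    ∃ k, finrank F V = r * k ∧ Grid T 0 r k := by
  have hc0 : c ≠ 0 := by
    intro h
    apply hc 0
    rw [zero_pow hr.ne_zero, h]
  have hss : T.IsSemisimple := isSemisimple_of_pow T hrF hc0 hT
  obtain ⟨k, B, hB, hBi, hBd, hBk⟩ := exists_chain T hss ⊤ (isInv_top T) r hr.one_lt.le
    (fun W hW _ hne => exists_isInv_finrank_r T hr hc hT W hW hne)
  have hk : finrank F V = r * k := by
    have h1 := hBd k le_rfl
    rw [hBk, finrank_top] at h1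
    exact h1
  refine ⟨k, hk, fun _ => ⊥, B, monotone_const, hB, fun _ => isInv_bot T, hBi, ?_, hBd,
    disjoint_bot_left⟩
  intro j hj
  rw [Nat.le_zero.1 hj]
  exact finrank_bot F V

end Cfsg.Agent.Lib.Helper25.Elu
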