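import Cfsg.Agent.Lib.Helper25.Elu.Defs
import Cfsg.Agent.Lib.Helper25.Elu.POWCRIT

/-! Ladder ELU, rung NUM2. -/

set_option autoImplicit false

namespace Cfsg.Agent.Lib.Helper25.Elu

open Module Polynomial

variable {F : Type*} [Field F] [Fintype F]

theorem not_cond1_of_nonpow {r : ℕ} [Fact r.Prime] (hr1 : r ∣ Fintype.card F - 1) {c : F}
    (hc : ∀ a : F, a ^ r ≠ c) {k : ℕ} (hk0 : 0 < k) (hk : ((-1) ^ (r + 1) * c) ^ k = 1) :
    ¬ Cond1 (Fintype.card F) r (r * k) := by
  rintro ⟨hv, h2⟩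
  have hr : r.Prime := Fact.out
  have hq : 0 < Fintype.card F - 1 := by
    have := Fintype.one_lt_card (α := F)
    omega
  have hc0 : c ≠ 0 := by
    intro h
    exact hc 0 (by rw [zero_pow hr.ne_zero, h])
  -- the twisted element is not an `r`-th power
  have hc' : ∀ a : F, a ^ r ≠ (-1) ^ (r + 1) * c := by
    rcases hr.eq_two_or_odd' with rfl | hodd
    · have hq4 := h2 rfl ⟨k, by ring⟩
      have hsq : IsSquare (-1 : F) := by
        rw [FiniteField.isSquare_neg_one_iff, hq4]; norm_num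
      obtain ⟨s, hs⟩ := hsq
      intro a ha
      apply hc (s * a)
      have e : ((-1 : F)) ^ (2 + 1) = -1 := by norm_num
      rw [e] at ha
      rw [mul_pow, ha, pow_two, ← hs]
      ring
    · intro a ha
      have e : ((-1 : F)) ^ (r + 1) = 1 := Even.neg_one_pow hodd.add_one
      rw [e, one_mul] at ha
      exact hc a ha
  have hne : (-1 : F) ^ (r + 1) * c ≠ 0 :=
    mul_ne_zero (pow_ne_zero _ (neg_ne_zero.2 one_ne_zero)) hc0
  have hq1 : ((-1 : F) ^ (r + 1) * c) ^ (Fintype.card F - 1) = 1 :=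
    FiniteField.pow_card_sub_one_eq_one _ hne
  have hg : ((-1 : F) ^ (r + 1) * c) ^ (Nat.gcd k (Fintype.card F - 1)) = 1 := by
    rw [← orderOf_dvd_iff_pow_eq_one]
    exact Nat.dvd_gcd (orderOf_dvd_of_pow_eq_one hk) (orderOf_dvd_of_pow_eq_one hq1)
  obtain ⟨h, hh⟩ := Nat.gcd_dvd_right k (Fintype.card F - 1)
  have hg0 : Nat.gcd k (Fintype.card F - 1) ≠ 0 := (Nat.gcd_pos_of_pos_left _ hk0).ne'
  have hh0 : h ≠ 0 := by
    rintro rfl
    rw [Nat.mul_zero] at hh
    omega
  have hvk : padicValNat r (r * k) = 1 + padicValNat r k := by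
    rw [padicValNat.mul hr.ne_zero hk0.ne', padicValNat_self]
  have hvg : padicValNat r (Nat.gcd k (Fintype.card F - 1)) ≤ padicValNat r k := by
    rw [← padicValNat_dvd_iff_le hk0.ne']
    exact dvd_trans pow_padicValNat_dvd (Nat.gcd_dvd_left _ _)
  have hrh : r ∣ h := by
    by_contra hn
    have e1 : padicValNat r (Fintype.card F - 1) =
        padicValNat r (Nat.gcd k (Fintype.card F - 1)) + padicValNat r h := by
      conv_lhs => rw [hh]
      exact padicValNat.mul hg0 hh0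
    rw [padicValNat.eq_zero_of_not_dvd hn] at e1
    omega
  obtain ⟨h', rfl⟩ := hrh
  have hdiv : (Fintype.card F - 1) / r = Nat.gcd k (Fintype.card F - 1) * h' := by
    conv_lhs => rw [hh]
    rw [show Nat.gcd k (Fintype.card F - 1) * (r * h') =
      r * (Nat.gcd k (Fintype.card F - 1) * h') by ring, Nat.mul_div_cancel_left _ hr.pos]
  obtain ⟨a, ha⟩ := (pow_crit hr.pos hr1 _ hne).2 (by rw [hdiv, pow_mul, hg, one_pow])
  exact hc' a ha

end Cfsg.Agent.Lib.Helper25.Elu
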