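import Cfsg.Agent.Lib.Helper25.Elu.Defs
import Cfsg.Agent.Lib.Helper25.Elu.ORD
import Cfsg.Agent.Lib.Helper25.Elu.SS
import Cfsg.Agent.Lib.Helper25.Elu.DET1
import Cfsg.Agent.Lib.Helper25.Elu.DETC
import Cfsg.Agent.Lib.Helper25.Elu.NUM2
import Cfsg.Agent.Lib.Helper25.Elu.GRID1
import Cfsg.Agent.Lib.Helper25.Elu.GRIDR
import Cfsg.Agent.Lib.Helper25.Elu.GRIDI

/-! Ladder ELU, rung FWD. -/

set_option autoImplicit false

namespace Cfsg.Agent.Lib.Helper25.Elu

open Module Polynomial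

variable {F : Type*} [Field F] {V : Type*} [AddCommGroup V] [Module F V] [FiniteDimensional F V]

/-- structure of the elements of order `r ≠ p` modulo scalars. -/
theorem fwd [Fintype F] {p : ℕ} [Fact p.Prime] [CharP F p] {r : ℕ} [Fact r.Prime] (hrp : r ≠ p)
    (hV : 0 < finrank F V) (T : End F V) (hdet : LinearMap.det T = 1) {c : F}
    (hT : T ^ r = c • 1) :
    T.IsSemisimple ∧ ∃ c' d k : ℕ, c' + d * k = finrank F V ∧ Grid T c' d k ∧
      ((ordq F r = 1 ∧ k = 0) ∨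
       (ordq F r = 1 ∧ c' = 0 ∧ d = r ∧ ¬ Cond1 (Fintype.card F) r (finrank F V)) ∨
       (2 ≤ ordq F r ∧ d = ordq F r)) := by
  have hr : r.Prime := Fact.out
  have hrF : (r : F) ≠ 0 := natCast_ne_zero hrp
  have hc0 : c ≠ 0 := by
    intro h
    have h1 : LinearMap.det (T ^ r) = 1 := by rw [map_pow, hdet, one_pow]
    rw [hT, h, zero_smul, LinearMap.det_zero, zero_pow hV.ne'] at h1
    exact zero_ne_one h1
  refine ⟨isSemisimple_of_pow T hrF hc0 hT, ?_⟩
  have hi := ordq_pos (F := F) hrp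
  rcases Nat.lt_or_ge (ordq F r) 2 with h1 | h2
  · have h1 : ordq F r = 1 := by omega
    have hr1 : r ∣ Fintype.card F - 1 := (ordq_eq_one_iff hrp).1 h1
    by_cases hpow : ∃ a : F, a ^ r = c
    · obtain ⟨a, rfl⟩ := hpow
      have ha : a ≠ 0 := by
        intro h
        exact hc0 (by rw [h, zero_pow hr.ne_zero])
      exact ⟨finrank F V, 1, 0, by simp, grid_of_pow_eq_pow T hrF hr1 ha hT 1, Or.inl ⟨h1, rfl⟩⟩
    · push Not at hpow
      obtain ⟨k, hk, hG⟩ := grid_of_not_pow T hr hrF hpow hT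
      obtain ⟨k', hk', hd⟩ := det_of_not_pow hr hrF hpow T hT
      have hkk : k' = k := Nat.eq_of_mul_eq_mul_left hr.pos (hk'.symm.trans hk)
      subst hkk
      refine ⟨0, r, k', by rw [hk, zero_add], hG, Or.inr (Or.inl ⟨h1, rfl, rfl, ?_⟩)⟩
      rw [hk]
      refine not_cond1_of_nonpow hr1 hpow ?_ (hd.symm.trans hdet)
      rcases Nat.eq_zero_or_pos k' with h | h
      · rw [h, mul_zero] at hk; omega
      · exact h
  · have hr1 : ¬ r ∣ Fintype.card F - 1 := by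
      intro h
      have := (ordq_eq_one_iff hrp).2 h
      omega
    obtain ⟨a, rfl⟩ := exists_pow_eq_of_not_dvd hr hr1 c
    have ha : a ≠ 0 := by
      intro h
      exact hc0 (by rw [h, zero_pow hr.ne_zero])
    have hy : (a⁻¹ • T) ^ r = 1 := by
      rw [_root_.smul_pow, hT, smul_smul, ← mul_pow, inv_mul_cancel₀ ha, one_pow, one_smul]
    obtain ⟨k, hk, hG⟩ := grid_of_pow_eq_one (a⁻¹ • T) hrp hy
    have hG' := hG.smul a
    rw [smul_smul, mul_inv_cancel₀ ha, one_smul] at hG'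
    exact ⟨_, _, k, by omega, hG', Or.inr (Or.inr ⟨h2, rfl⟩)⟩

end Cfsg.Agent.Lib.Helper25.Elu
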