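import Cfsg.Agent.Lib.Helper25.Elu.Defs
import Cfsg.Agent.Lib.Helper25.Elu.ORD
import Cfsg.Agent.Lib.Helper25.Elu.CNT1

/-! Ladder ELU, rung GRDVD. -/

set_option autoImplicit false

namespace Cfsg.Agent.Lib.Helper25.Elu

open Module Polynomial

theorem pow_sub_pow_eq (q : ℕ) {n j : ℕ} (h : j ≤ n) : q ^ n - q ^ j = q ^ j * (q ^ (n - j) - 1) := by
  rw [Nat.mul_sub, mul_one, ← pow_add, Nat.add_sub_cancel' h]

variable {F : Type*} [Field F] [Fintype F] {p : ℕ} [Fact p.Prime] [CharP F p]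

/-- by CNT1 `r ∣ q^n - q^j = q^j (q^(n-j) - 1)` for some `j < m`, so `i ∣ n - j`, `n % i ≤ j`. -/
theorem mod_lt_of_dvd_gr {r : ℕ} [Fact r.Prime] (hrp : r ≠ p) {n m : ℕ} (hmn : m ≤ n)
    (h : r ∣ gr F n m) : n % ordq F r < m := by
  have hr : r.Prime := Fact.out
  have h1 := gr_mul_prod (F := F) hmn
  have h2 : r ∣ ∏ j : Fin m, (Fintype.card F ^ n - Fintype.card F ^ (j : ℕ)) := by
    rw [← h1]
    exact Dvd.dvd.mul_right h _
  obtain ⟨j, -, hj⟩ := (Prime.dvd_finsetProd_iff hr.prime _).1 h2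
  have hjn : (j : ℕ) ≤ n := (j.2.le).trans hmn
  rw [pow_sub_pow_eq _ hjn] at hj
  rcases (Nat.Prime.dvd_mul hr).1 hj with h3 | h3
  · exact absurd (hr.dvd_of_dvd_pow h3) (not_dvd_card hrp)
  · rw [dvd_pow_sub_one_iff hrp] at h3
    obtain ⟨t, ht⟩ := h3
    have h4 : n = (j : ℕ) + ordq F r * t := by omega
    have h5 : n % ordq F r = (j : ℕ) % ordq F r := by
      conv_lhs => rw [h4]
      rw [Nat.add_mul_mod_self_left]
    rw [h5]
    exact lt_of_le_of_lt (Nat.mod_le _ _) j.2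

/-- cancel `q^(0+1+…+(m-1))` in CNT1 and reduce mod `p`. -/
theorem not_dvd_gr {n m : ℕ} (hmn : m ≤ n) : ¬ p ∣ gr F n m := by
  intro h
  have hp : p.Prime := Fact.out
  have hpq : p ∣ Fintype.card F := by
    obtain ⟨f, -, hf⟩ := FiniteField.card F p
    rw [hf]
    exact dvd_pow_self p f.pos.ne'
  have h1 := gr_mul_prod (F := F) hmn
  have e1 : ∀ N, m ≤ N → ∏ j : Fin m, (Fintype.card F ^ N - Fintype.card F ^ (j : ℕ)) =
      (∏ j : Fin m, Fintype.card F ^ (j : ℕ)) * ∏ j : Fin m, (Fintype.card F ^ (N - (j : ℕ)) - 1) := by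
    intro N hN
    rw [← Finset.prod_mul_distrib]
    exact Finset.prod_congr rfl (fun j _ => pow_sub_pow_eq _ ((j.2.le).trans hN))
  rw [e1 m le_rfl, e1 n hmn, mul_left_comm] at h1
  have hpos : 0 < ∏ j : Fin m, Fintype.card F ^ (j : ℕ) :=
    Finset.prod_pos (fun j _ => pow_pos Fintype.card_pos _)
  have h2 := Nat.eq_of_mul_eq_mul_left hpos h1
  have h3 : p ∣ ∏ j : Fin m, (Fintype.card F ^ (n - (j : ℕ)) - 1) := by
    rw [← h2]
    exact Dvd.dvd.mul_right h _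
  obtain ⟨j, -, hj⟩ := (Prime.dvd_finsetProd_iff hp.prime _).1 h3
  have hjn : 0 < n - (j : ℕ) := by
    have := j.2
    omega
  have h4 : p ∣ Fintype.card F ^ (n - (j : ℕ)) := Dvd.dvd.trans hpq (dvd_pow_self _ hjn.ne')
  have h5 : 1 ≤ Fintype.card F ^ (n - (j : ℕ)) := Nat.one_le_pow _ _ Fintype.card_pos
  have h6 : p ∣ 1 := by
    have := (Nat.dvd_sub_iff_right h5 h4).1 hj
    exact this
  exact hp.one_lt.ne' (Nat.dvd_one.1 h6)

end Cfsg.Agent.Lib.Helper25.Elu
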