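import Cfsg.Agent.Lib.Helper25.Elu.Defs

/-! Ladder ELU, rung GRIDUSE. -/

set_option autoImplicit false

namespace Cfsg.Agent.Lib.Helper25.Elu

open Module Polynomial

variable {F : Type*} [Field F] {V : Type*} [AddCommGroup V] [Module F V] [FiniteDimensional F V]

/-- `U = A a ⊔ B b ≤ W = A a' ⊔ B b'`. -/
theorem Grid.exists_flag {T : End F V} {c d k : ℕ} (h : Grid T c d k) {a b a' b' : ℕ}
    (haa : a ≤ a') (ha : a' ≤ c) (hbb : b ≤ b') (hb : b' ≤ k) :
    ∃ U W : Submodule F V, U ≤ W ∧ IsInv T U ∧ IsInv T W ∧ finrank F U = a + d * b ∧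
      finrank F W = a' + d * b' := by
  obtain ⟨A, B, hA, hB, hAi, hBi, h1, h2, h3⟩ := h
  have key : ∀ x y, x ≤ c → y ≤ k → finrank F ↥(A x ⊔ B y) = x + d * y := by
    intro x y hx hy
    have hd : Disjoint (A x) (B y) := h3.mono (hA hx) (hB hy)
    have := Submodule.finrank_sup_add_finrank_inf_eq (A x) (B y)
    rw [hd.eq_bot, finrank_bot, h1 x hx, h2 y hy] at this
    omega
  exact ⟨A a ⊔ B b, A a' ⊔ B b', sup_le_sup (hA haa) (hB hbb), (hAi a).sup (hBi b),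
    (hAi a').sup (hBi b'), key a b (haa.trans ha) (hbb.trans hb), key a' b' ha hb⟩

theorem Grid.exists_isInv {T : End F V} {c d k : ℕ} (h : Grid T c d k) {a b : ℕ}
    (ha : a ≤ c) (hb : b ≤ k) : ∃ W : Submodule F V, IsInv T W ∧ finrank F W = a + d * b := by
  obtain ⟨U, _, _, hU, _, h1, _⟩ := h.exists_flag le_rfl ha le_rfl hb
  exact ⟨U, hU, h1⟩

end Cfsg.Agent.Lib.Helper25.Elu
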