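import Cfsg.Agent.Lib.Helper25.Elu.Defs
import Cfsg.Agent.Lib.Helper48.JordanDecomp
import Cfsg.Agent.Lib.Helper48.JordanGL

/-! Ladder ELU, rung UNI. -/

set_option autoImplicit false

namespace Cfsg.Agent.Lib.Helper25.Elu

open Module Polynomial

open Cfsg.Agent.Lib.Helper48 in
/-- Krull-Schmidt for nilpotent maps, from helper48's Jordan library:
`JType.exists_add_of_isCompl` (⇒); `exists_nilpotent_jtype`, `JType.prodMap`, `JType.exists_equiv` (⇐). -/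
theorem exists_pair_iff {F : Type*} [Field F] {n : ℕ} {N : End F (Fin n → F)} (hN : IsNilpotent N)
    {μ : Multiset ℕ} (hμ : ∀ b ∈ μ, 1 ≤ b) (hJ : JType N μ) (m : ℕ) :
    (∃ U W : Submodule F (Fin n → F), IsCompl U W ∧ finrank F U = m ∧ IsInv N U ∧ IsInv N W) ↔
      ∃ ν : Multiset ℕ, ν ≤ μ ∧ ν.sum = m := by
  constructor
  · rintro ⟨U, W, hUW, hU, hiU, hiW⟩
    obtain ⟨ν₁, ν₂, h1, h2, -⟩ := hJ.exists_add_of_isCompl hN hμ U W hUW hiU hiW
    exact ⟨ν₁, by rw [h1]; exact Multiset.le_add_right _ _, by rw [h2, hU]⟩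
  · rintro ⟨ν, hν, hsum⟩
    obtain ⟨ν', rfl⟩ := Multiset.le_iff_exists_add.1 hν
    obtain ⟨n₁, N₁, hN₁, hJ₁⟩ := exists_nilpotent_jtype (F := F) ν
    obtain ⟨n₂, N₂, hN₂, hJ₂⟩ := exists_nilpotent_jtype (F := F) ν'
    have hJ' := hJ₁.prodMap hJ₂
    have hN' : IsNilpotent (LinearMap.prodMap N₁ N₂ : End F ((Fin n₁ → F) × (Fin n₂ → F))) := by
      obtain ⟨a, ha⟩ := hN₁
      obtain ⟨b, hb⟩ := hN₂
      refine ⟨a + b, ?_⟩
      rw [prodMap_pow', pow_add, ha, zero_mul, pow_add, hb, mul_zero]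
      ext <;> simp
    obtain ⟨φ, hφ⟩ := hJ'.exists_equiv hJ hN' hN
    have hn₁ : n₁ = m := by
      have := hJ₁.sum_eq hN₁
      rw [hsum] at this
      simpa using this.symm
    refine ⟨(LinearMap.range (LinearMap.inl F (Fin n₁ → F) (Fin n₂ → F))).map (φ : _ →ₗ[F] _),
      (LinearMap.range (LinearMap.inr F (Fin n₁ → F) (Fin n₂ → F))).map (φ : _ →ₗ[F] _), ?_, ?_, ?_, ?_⟩
    · exact (Submodule.orderIsoMapComap φ).isCompl LinearMap.isCompl_range_inl_inr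
    · rw [LinearEquiv.finrank_map_eq, LinearMap.finrank_range_of_inj LinearMap.inl_injective]
      simp [hn₁]
    · rintro _ ⟨_, ⟨x, rfl⟩, rfl⟩
      refine ⟨LinearMap.inl F _ _ (N₁ x), ⟨_, rfl⟩, ?_⟩
      rw [LinearEquiv.coe_coe, ← hφ]
      simp
    · rintro _ ⟨_, ⟨x, rfl⟩, rfl⟩
      refine ⟨LinearMap.inr F _ _ (N₂ x), ⟨_, rfl⟩, ?_⟩
      rw [LinearEquiv.coe_coe, ← hφ]
      simp

end Cfsg.Agent.Lib.Helper25.Elu
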