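import Cfsg.Agent.Lib.Helper25.Elu.Defs
import Cfsg.Agent.Lib.Helper25.Elu.UNI
import Cfsg.Agent.Lib.Helper48.JordanDecomp
import Cfsg.Agent.Lib.Helper48.JordanGL

/-! Ladder ELU, rung UNIP. -/

set_option autoImplicit false

namespace Cfsg.Agent.Lib.Helper25.Elu

open Module Polynomial

open Cfsg.Agent.Lib.Helper48 in
theorem UNIP_bwd {F : Type*} [Field F] [Fintype F] {p : ℕ} [Fact p.Prime] [CharP F p] {n m : ℕ}
    (hn : 0 < n)
    (H : ∀ μ : Multiset ℕ, (∀ a ∈ μ, 0 < a ∧ a ≤ p) → μ.sum = n →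
      ∃ ν : Multiset ℕ, ν ≤ μ ∧ ν.sum = m)
    (T : End F (Fin n → F)) (hdet : LinearMap.det T = 1) (c : F) (hc : T ^ p = c • 1) :
    ∃ U W : Submodule F (Fin n → F), IsCompl U W ∧ finrank F U = m ∧ IsInv T U ∧ IsInv T W := by
  have hp : p.Prime := Fact.out
  have hc0 : c ≠ 0 := by
    rintro rfl
    have h1 := congrArg LinearMap.det hc
    have : Nonempty (Fin n) := ⟨⟨0, hn⟩⟩
    rw [map_pow, hdet, one_pow, zero_smul, LinearMap.det_zero' (Pi.basisFun F (Fin n))] at h1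
    exact one_ne_zero h1
  obtain ⟨a, ha⟩ := surjective_frobenius F p c
  rw [frobenius_def] at ha
  have ha0 : a ≠ 0 := by
    rintro rfl
    rw [zero_pow hp.ne_zero] at ha
    exact hc0 ha.symm
  set u : End F (Fin n → F) := a⁻¹ • T with hu
  have hup : u ^ p = 1 := by
    rw [hu, _root_.smul_pow, hc, smul_smul, ← ha, inv_pow, inv_mul_cancel₀ (pow_ne_zero p ha0), one_smul]
  have hNp : (u - 1) ^ p = 0 := by
    have := sub_one_pow_char_pow p u 1
    rw [pow_one] at this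
    rw [this, hup, sub_self]
  have hN : IsNilpotent (u - 1) := ⟨p, hNp⟩
  obtain ⟨μ, hμ1, hJ⟩ := exists_jtype n (Fin n → F) (u - 1) (by simp) hN
  have hμp : ∀ b ∈ μ, b ≤ p := (hJ.pow_eq_zero_iff hN p).1 hNp
  have hsum : μ.sum = n := by
    rw [hJ.sum_eq hN]
    simp
  obtain ⟨ν, hν, hνm⟩ := H μ (fun b hb => ⟨hμ1 b hb, hμp b hb⟩) hsum
  obtain ⟨U, W, hUW, hU, hUi, hWi⟩ := (exists_pair_iff hN hμ1 hJ m).2 ⟨ν, hν, hνm⟩
  exact ⟨U, W, hUW, hU, IsInv.of_smul (inv_ne_zero ha0) hUi.of_sub_one,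
    IsInv.of_smul (inv_ne_zero ha0) hWi.of_sub_one⟩

open Cfsg.Agent.Lib.Helper48 in
theorem UNIP_fwd {F : Type*} [Field F] [Fintype F] {p : ℕ} [Fact p.Prime] [CharP F p] {n m : ℕ}
    (hmn : m ≤ n)
    (H : ∀ T : End F (Fin n → F), LinearMap.det T = 1 → (∃ c : F, T ^ p = c • 1) →
      (∀ c : F, T ≠ c • 1) →
      ∃ U W : Submodule F (Fin n → F), IsCompl U W ∧ finrank F U = m ∧ IsInv T U ∧ IsInv T W)
    (μ : Multiset ℕ) (hμ : ∀ a ∈ μ, 0 < a ∧ a ≤ p) (hsum : μ.sum = n) :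
    ∃ ν : Multiset ℕ, ν ≤ μ ∧ ν.sum = m := by
  have hp : p.Prime := Fact.out
  obtain ⟨A, hN, hJ⟩ := exists_unit_jtype (F := F) μ hsum
  set T : End F (Fin n → F) := (A : End F (Fin n → F)) with hT
  have hNp : (T - 1) ^ p = 0 := (hJ.pow_eq_zero_iff hN p).2 (fun b hb => (hμ b hb).2)
  have hTp : T ^ p = 1 := by
    have := sub_one_pow_char_pow p T 1
    rw [pow_one, hNp] at this
    exact (sub_eq_zero.1 this.symm)
  have hdet : LinearMap.det T = 1 := by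
    have h1 : (LinearMap.det T) ^ p = 1 := by rw [← map_pow, hTp, map_one]
    have h2 : (LinearMap.det T - 1) ^ p = 0 := by
      rw [sub_pow_char, h1, one_pow, sub_self]
    exact sub_eq_zero.1 (pow_eq_zero_iff hp.ne_zero |>.1 h2)
  by_cases hsc : ∃ c : F, T = c • 1
  · obtain ⟨c, hc⟩ := hsc
    have hN0 : (T - 1) ^ 1 = 0 := by
      rw [pow_one]
      have h1 : T - 1 = (c - 1) • (1 : End F (Fin n → F)) := by rw [hc]; module
      rw [h1] at hNp ⊢
      rw [_root_.smul_pow, one_pow] at hNp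
      by_cases hc1 : c - 1 = 0
      · rw [hc1, zero_smul]
      · have h2 : (1 : End F (Fin n → F)) = 0 := by
          have := congrArg (fun S => ((c - 1) ^ p)⁻¹ • S) hNp
          simpa [smul_smul, inv_mul_cancel₀ (pow_ne_zero p hc1)] using this
        rw [h2, smul_zero]
    have hle1 : ∀ b ∈ μ, b ≤ 1 := (hJ.pow_eq_zero_iff hN 1).1 hN0
    have heq1 : ∀ b ∈ μ, b = 1 := fun b hb => le_antisymm (hle1 b hb) (hμ b hb).1
    have hrep : μ = Multiset.replicate (Multiset.card μ) 1 := Multiset.eq_replicate_card.2 heq1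
    have hcard : Multiset.card μ = n := by
      rw [hrep] at hsum
      simpa using hsum
    refine ⟨Multiset.replicate m 1, ?_, by simp⟩
    rw [hrep, hcard]
    exact Multiset.replicate_le_replicate 1 |>.2 hmn
  · push Not at hsc
    obtain ⟨U, W, hUW, hU, hUi, hWi⟩ := H T hdet ⟨1, by rw [hTp, one_smul]⟩ hsc
    exact (exists_pair_iff hN (fun b hb => (hμ b hb).1) hJ m).1
      ⟨U, W, hUW, hU, hUi.sub_one, hWi.sub_one⟩

/-- the case `r = p` of S5950. -/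
theorem unip_iff {F : Type*} [Field F] [Fintype F] {p : ℕ} [Fact p.Prime] [CharP F p] {n m : ℕ}
    (hn : 0 < n) (hmn : m ≤ n) :
    (∀ T : End F (Fin n → F), LinearMap.det T = 1 → (∃ c : F, T ^ p = c • 1) →
      (∀ c : F, T ≠ c • 1) →
      ∃ U W : Submodule F (Fin n → F), IsCompl U W ∧ finrank F U = m ∧ IsInv T U ∧ IsInv T W) ↔
    (∀ μ : Multiset ℕ, (∀ a ∈ μ, 0 < a ∧ a ≤ p) → μ.sum = n →
      ∃ ν : Multiset ℕ, ν ≤ μ ∧ ν.sum = m) := by
  constructor
  · intro H μ hμ hsum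
    exact UNIP_fwd hmn H μ hμ hsum
  · rintro H T hdet ⟨c, hc⟩ -
    exact UNIP_bwd hn H T hdet c hc

end Cfsg.Agent.Lib.Helper25.Elu
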