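import Cfsg.Agent.Lib.Helper25.Elu.Defs
import Cfsg.Agent.Lib.Helper25.Elu.ORD
import Cfsg.Agent.Lib.Helper25.Elu.SS
import Cfsg.Agent.Lib.Helper25.Elu.FWD
import Cfsg.Agent.Lib.Helper25.Elu.DERR
import Cfsg.Agent.Lib.Helper25.Elu.DERI
import Cfsg.Agent.Lib.Helper25.Elu.GRDVD
import Cfsg.Agent.Lib.Helper25.Elu.DUAL
import Cfsg.Agent.Lib.Helper25.Elu.ARITH
import Cfsg.Agent.Lib.Helper25.Elu.GRIDUSE
import Cfsg.Agent.Lib.Helper25.Elu.UNIP
import Cfsg.Agent.Lib.Helper25.Elu.PART2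

/-! Ladder ELU: the three main theorems in terms of endomorphisms. -/

set_option autoImplicit false

namespace Cfsg.Agent.Lib.Helper25.Elu

open Module

variable {F : Type*} [Field F] [Fintype F] {p : ℕ} [Fact p.Prime] [CharP F p]

theorem main49 (n m : ℕ) (hm : 1 ≤ m) (hmn : 2 * m ≤ n) (r : ℕ) [Fact r.Prime]
    (hrΩ : r ∣ gr F n m) :
    (∀ T : End F (Fin n → F), LinearMap.det T = 1 → (∃ c : F, T ^ r = c • 1) →
      (∀ c : F, T ≠ c • 1) → ∃ W : Submodule F (Fin n → F), finrank F W = m ∧ IsInv T W) ↔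
    (r ≠ p ∧ ((ordq F r = 1 ∧ (r ∣ m ∨ Cond1 (Fintype.card F) r n)) ∨
      (2 ≤ ordq F r ∧ ordq F r ≤ m ∧ m % ordq F r ≤ n % ordq F r))) := by
  have hrp : r ≠ p := by
    rintro rfl
    exact not_dvd_gr (F := F) (p := r) (by omega : m ≤ n) hrΩ
  have hlt := mod_lt_of_dvd_gr hrp (by omega : m ≤ n) hrΩ
  have hi := ordq_pos (F := F) hrp
  constructor
  · intro H
    refine ⟨hrp, ?_⟩
    rcases Nat.lt_or_ge (ordq F r) 2 with h1 | h2
    · have h1 : ordq F r = 1 := by omega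
      left
      refine ⟨h1, ?_⟩
      by_contra hcon
      rw [not_or] at hcon
      obtain ⟨T, hdet, hc, hns, hdiv⟩ := der_r hrp h1 (by omega : 0 < n) hcon.2
      obtain ⟨W, hW, hinv⟩ := H T hdet hc hns
      exact hcon.1 (hW ▸ hdiv W hinv)
    · right
      have hin : ordq F r ≤ n := by
        by_contra h
        rw [Nat.mod_eq_of_lt (by omega)] at hlt
        omega
      obtain ⟨T, hdet, hc, hns, C, hC, hdiv⟩ := der_i hrp h2 hin
      obtain ⟨W, hW, hinv⟩ := H T hdet hc hns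
      obtain ⟨b, hb⟩ := hdiv W hinv
      have ha : finrank F ↥(W ⊓ C) ≤ n % ordq F r := hC ▸ Submodule.finrank_mono inf_le_right
      rw [hW] at hb
      have := ar49' hi hb ha hlt
      exact ⟨h2, this.1, this.2⟩
  · rintro ⟨-, hcond⟩ T hdet ⟨c, hc⟩ hns
    have hfr : finrank F (Fin n → F) = n := by simp
    obtain ⟨hss, c', d, k, hsum, hG, hcase⟩ := fwd hrp (by rw [hfr]; omega) T hdet hc
    rw [hfr] at hsum hcase
    rcases hcase with ⟨h1, hk⟩ | ⟨h1, hc0, hd, hnC⟩ | ⟨h2, hd⟩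
    · subst hk
      obtain ⟨W, hW, hf⟩ := hG.exists_isInv (a := m) (b := 0) (by omega) le_rfl
      exact ⟨W, by simpa using hf, hW⟩
    · have hrm : r ∣ m := by
        rcases hcond with ⟨_, h | h⟩ | ⟨h, _⟩
        · exact h
        · exact absurd h hnC
        · omega
      obtain ⟨b, rfl⟩ := hrm
      subst hc0 hd
      have hbk : b ≤ k := by
        by_contra h
        have : d * k < d * b := Nat.mul_lt_mul_of_pos_left (by omega) (Fact.out : d.Prime).pos
        omega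
      obtain ⟨W, hW, hf⟩ := hG.exists_isInv (a := 0) (b := b) le_rfl hbk
      exact ⟨W, by simpa using hf, hW⟩
    · subst hd
      have hmod : m % ordq F r ≤ n % ordq F r := by
        rcases hcond with ⟨h, _⟩ | ⟨_, _, h⟩
        · omega
        · exact h
      obtain ⟨a, b, ha, hb, hab⟩ := ar49 (k := k) hi (by omega) (by omega : m ≤ n) hmod
      obtain ⟨W, hW, hf⟩ := hG.exists_isInv (a := a) (b := b) (by omega) hb
      exact ⟨W, by rw [hf, hab], hW⟩

theorem main50 (n m : ℕ) (hm : 1 ≤ m) (hmn : 2 * m < n) (r : ℕ) [Fact r.Prime]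
    (hrΩ : r ∣ gr F n m * Fintype.card F ^ (m * (n - m))) :
    (∀ T : End F (Fin n → F), LinearMap.det T = 1 → (∃ c : F, T ^ r = c • 1) →
      (∀ c : F, T ≠ c • 1) → ∃ U W : Submodule F (Fin n → F), IsCompl U W ∧ finrank F U = m ∧
        IsInv T U ∧ IsInv T W) ↔
    ((r = p ∧ 2 < p ∧ (∀ μ : Multiset ℕ, (∀ a ∈ μ, 0 < a ∧ a ≤ p) → μ.sum = n →
        ∃ ν : Multiset ℕ, ν ≤ μ ∧ ν.sum = m)) ∨
     (r = p ∧ p = 2 ∧ (Odd n ∨ Even m)) ∨
     (r ≠ p ∧ ((ordq F r = 1 ∧ (r ∣ m ∨ Cond1 (Fintype.card F) r n)) ∨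
      (2 ≤ ordq F r ∧ ordq F r ≤ m ∧ m % ordq F r ≤ n % ordq F r)))) := by
  by_cases hrp : r = p
  · subst hrp
    rw [unip_iff (F := F) (p := r) (by omega : 0 < n) (by omega : m ≤ n)]
    have h2 : 2 ≤ r := (Fact.out : r.Prime).two_le
    constructor
    · intro H
      rcases Nat.lt_or_ge 2 r with h | h
      · exact Or.inl ⟨rfl, h, H⟩
      · have hr2 : r = 2 := by omega
        refine Or.inr (Or.inl ⟨rfl, hr2, ?_⟩)
        subst hr2
        exact (part_two_iff (by omega : m ≤ n)).1 H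
    · rintro (⟨-, -, H⟩ | ⟨-, hr2, H⟩ | ⟨h, -⟩)
      · exact H
      · subst hr2
        exact (part_two_iff (by omega : m ≤ n)).2 H
      · exact absurd rfl h
  · have hgr : r ∣ gr F n m := by
      rcases (Nat.Prime.dvd_mul (Fact.out : r.Prime)).1 hrΩ with h | h
      · exact h
      · exact absurd ((Fact.out : r.Prime).dvd_of_dvd_pow h) (not_dvd_card hrp)
    have key := main49 (F := F) (p := p) n m hm (by omega) r hgr
    have hfr : finrank F (Fin n → F) = n := by simp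
    constructor
    · intro H
      refine Or.inr (Or.inr (key.1 ?_))
      intro T hdet hc hns
      obtain ⟨U, W, -, hU, hi, -⟩ := H T hdet hc hns
      exact ⟨U, hU, hi⟩
    · rintro (⟨h, -⟩ | ⟨h, -⟩ | H)
      · exact absurd h hrp
      · exact absurd h hrp
      · intro T hdet hc hns
        obtain ⟨U, hU, hi⟩ := key.2 H T hdet hc hns
        obtain ⟨c, hc'⟩ := hc
        obtain ⟨hss, -⟩ := fwd hrp (by rw [hfr]; omega) T hdet hc'
        obtain ⟨Q, hQ, hcompl⟩ := exists_isInv_isCompl hss hi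
        exact ⟨U, Q, hcompl, hU, hi, hQ⟩

theorem main51 (n m : ℕ) (hm : 1 ≤ m) (hmn : 2 * m < n) (r : ℕ) [Fact r.Prime]
    (hrΩ : r ∣ gr F n (n - m) * gr F (n - m) m) :
    (∀ T : End F (Fin n → F), LinearMap.det T = 1 → (∃ c : F, T ^ r = c • 1) →
      (∀ c : F, T ≠ c • 1) → ∃ U W : Submodule F (Fin n → F), U ≤ W ∧ finrank F U = m ∧
        finrank F W = n - m ∧ IsInv T U ∧ IsInv T W) ↔
    (r ≠ p ∧ ((ordq F r = 1 ∧ (r ∣ m ∨ Cond1 (Fintype.card F) r n)) ∨
      (2 ≤ ordq F r ∧ ordq F r ≤ m ∧ 2 * (m % ordq F r) ≤ n % ordq F r))) := by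
  rw [gr_symm (by omega : m ≤ n)] at hrΩ
  have hor := (Nat.Prime.dvd_mul (Fact.out : r.Prime)).1 hrΩ
  have hrp : r ≠ p := by
    rintro rfl
    rcases hor with h | h
    · exact not_dvd_gr (F := F) (p := r) (by omega : m ≤ n) h
    · exact not_dvd_gr (F := F) (p := r) (by omega : m ≤ n - m) h
  have hlt : n % ordq F r < m ∨ (n - m) % ordq F r < m := by
    rcases hor with h | h
    · exact Or.inl (mod_lt_of_dvd_gr hrp (by omega : m ≤ n) h)
    · exact Or.inr (mod_lt_of_dvd_gr hrp (by omega : m ≤ n - m) h)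
  have hi := ordq_pos (F := F) hrp
  constructor
  · intro H
    refine ⟨hrp, ?_⟩
    rcases Nat.lt_or_ge (ordq F r) 2 with h1 | h2
    · have h1 : ordq F r = 1 := by omega
      left
      refine ⟨h1, ?_⟩
      by_contra hcon
      rw [not_or] at hcon
      obtain ⟨T, hdet, hc, hns, hdiv⟩ := der_r hrp h1 (by omega : 0 < n) hcon.2
      obtain ⟨U, W, -, hU, -, hinv, -⟩ := H T hdet hc hns
      exact hcon.1 (hU ▸ hdiv U hinv)
    · right
      have hin : ordq F r ≤ n := by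
        by_contra h
        rw [Nat.mod_eq_of_lt (by omega), Nat.mod_eq_of_lt (by omega)] at hlt
        omega
      obtain ⟨T, hdet, hc, hns, C, hC, hdiv⟩ := der_i hrp h2 hin
      obtain ⟨U, W, hUW, hU, hW, hUi, hWi⟩ := H T hdet hc hns
      obtain ⟨b₁, hb₁⟩ := hdiv U hUi
      obtain ⟨b₂, hb₂⟩ := hdiv W hWi
      have ha : finrank F ↥(W ⊓ C) ≤ n % ordq F r := hC ▸ Submodule.finrank_mono inf_le_right
      have h12 : finrank F ↥(U ⊓ C) ≤ finrank F ↥(W ⊓ C) :=
        Submodule.finrank_mono (inf_le_inf_right C hUW)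
      rw [hU] at hb₁
      rw [hW] at hb₂
      have := ar51' hi hmn hb₁ hb₂ h12 ha hlt
      exact ⟨h2, this.1, this.2⟩
  · rintro ⟨-, hcond⟩ T hdet ⟨c, hc⟩ hns
    have hfr : finrank F (Fin n → F) = n := by simp
    obtain ⟨hss, c', d, k, hsum, hG, hcase⟩ := fwd hrp (by rw [hfr]; omega) T hdet hc
    rw [hfr] at hsum hcase
    rcases hcase with ⟨h1, hk⟩ | ⟨h1, hc0, hd, hnC⟩ | ⟨h2, hd⟩
    · subst hk
      obtain ⟨U, W, hUW, hU, hW, hfU, hfW⟩ := hG.exists_flag (a := m) (a' := n - m) (b := 0) (b' := 0)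
        (by omega) (by omega) le_rfl le_rfl
      exact ⟨U, W, hUW, by simpa using hfU, by simpa using hfW, hU, hW⟩
    · have hrm : r ∣ m := by
        rcases hcond with ⟨_, h | h⟩ | ⟨h, _⟩
        · exact h
        · exact absurd h hnC
        · omega
      obtain ⟨b, rfl⟩ := hrm
      subst hc0 hd
      have hdpos : 0 < d := (Fact.out : d.Prime).pos
      have hbk : 2 * b ≤ k := by
        by_contra h
        have : d * k < d * (2 * b) := Nat.mul_lt_mul_of_pos_left (by omega) hdpos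
        have e : d * (2 * b) = 2 * (d * b) := by ring
        omega
      obtain ⟨U, W, hUW, hU, hW, hfU, hfW⟩ := hG.exists_flag (a := 0) (a' := 0) (b := b) (b' := k - b)
        le_rfl le_rfl (by omega) (by omega)
      refine ⟨U, W, hUW, by simpa using hfU, ?_, hU, hW⟩
      rw [hfW, Nat.mul_sub, ← hsum]
      omega
    · subst hd
      have hmod : 2 * (m % ordq F r) ≤ n % ordq F r := by
        rcases hcond with ⟨h, _⟩ | ⟨_, _, h⟩
        · omega
        · exact h
      obtain ⟨a, b, a', b', haa, ha', hbb, hb', hab, hab'⟩ := ar51 (k := k) hi (by omega) hmn hmod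
      obtain ⟨U, W, hUW, hU, hW, hfU, hfW⟩ := hG.exists_flag haa (by omega) hbb hb'
      exact ⟨U, W, hUW, by rw [hfU, hab], by rw [hfW, hab'], hU, hW⟩

end Cfsg.Agent.Lib.Helper25.Elu
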