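import Cfsg.Agent.Lib.Helper25.Elu.Defs
import Cfsg.Agent.Lib.Helper25.Elu.GRV
import Cfsg.Agent.Lib.Helper50.Count

/-! Ladder ELU, rung PAIR. -/

set_option autoImplicit false

namespace Cfsg.Agent.Lib.Helper25.Elu

open Module Polynomial

/-- the projections onto `U` are a torsor under `Hom (V ⧸ U, U)` -/
noncomputable def projEquivHom {F : Type*} [Field F] {V : Type*} [AddCommGroup V] [Module F V]
    (U : Submodule F V) (f₀ : V →ₗ[F] U) (hf₀ : ∀ x : U, f₀ x = x) :
    {f : V →ₗ[F] U // ∀ x : U, f x = x} ≃ ((V ⧸ U) →ₗ[F] U) where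
  toFun f := U.liftQ (f.1 - f₀) (by
    intro x hx
    rw [LinearMap.mem_ker, LinearMap.sub_apply, f.2 ⟨x, hx⟩, hf₀ ⟨x, hx⟩, sub_self])
  invFun g := ⟨f₀ + g.comp U.mkQ, by
    intro x
    rw [LinearMap.add_apply, hf₀ x, LinearMap.comp_apply, Submodule.mkQ_apply,
      (Submodule.Quotient.mk_eq_zero U).2 x.2, map_zero, add_zero]⟩
  left_inv f := by
    apply Subtype.ext
    ext v : 1
    simp
  right_inv g := by
    apply Submodule.linearMap_qext
    ext v : 1
    simp

theorem card_compl {F : Type*} [Field F] [Fintype F] {V : Type*} [AddCommGroup V] [Module F V]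
    [FiniteDimensional F V] (U : Submodule F V) :
    Nat.card {W : Submodule F V // IsCompl U W} =
      Fintype.card F ^ (finrank F U * (finrank F V - finrank F U)) := by
  obtain ⟨W₀, hW₀⟩ := Submodule.exists_isCompl U
  let f₀ := U.isComplEquivProj ⟨W₀, hW₀⟩
  rw [Nat.card_congr U.isComplEquivProj, Nat.card_congr (projEquivHom U f₀.1 f₀.2),
    Module.natCard_eq_pow_finrank (K := F), Module.finrank_linearMap, Submodule.finrank_quotient,
    Nat.card_eq_fintype_card, mul_comm]

/-- each `U` of dimension `m` has exactly `q^(m (n-m))` complements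
(`Submodule.isComplEquivProj`; the projections onto `U` are a torsor under `Hom (V ⧸ U, U)`). -/
theorem card_pairs {F : Type*} [Field F] [Fintype F] {n m : ℕ} (hmn : m ≤ n) :
    Nat.card {P : Submodule F (Fin n → F) × Submodule F (Fin n → F) //
        IsCompl P.1 P.2 ∧ finrank F ↥P.1 = m} = gr F n m * Fintype.card F ^ (m * (n - m)) := by
  have : Finite (Submodule F (Fin n → F)) :=
    Finite.of_injective (fun W => (W : Set (Fin n → F))) SetLike.coe_injective
  have h1 := Cfsg.Agent.Lib.Helper50.card_pairs (α := Submodule F (Fin n → F))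
    (β := Submodule F (Fin n → F)) (fun U => finrank F U = m) (fun U W => IsCompl U W)
    (Fintype.card F ^ (m * (n - m))) (by
      intro U hU
      rw [card_compl U, hU]
      simp)
  rw [gr, ← h1]
  apply Nat.card_congr
  exact Equiv.subtypeEquivRight (fun P => and_comm)

end Cfsg.Agent.Lib.Helper25.Elu
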