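import Cfsg.Agent.Lib.Helper25.Elu.Defs

/-! Ladder ELU, rung PART2. -/

set_option autoImplicit false

namespace Cfsg.Agent.Lib.Helper25.Elu

open Module Polynomial

theorem part_two_sum (μ : Multiset ℕ) : (∀ a ∈ μ, 0 < a ∧ a ≤ 2) →
    μ.sum = 2 * μ.count 2 + μ.count 1 := by
  induction μ using Multiset.induction_on with
  | empty => intro _; simp
  | cons x s ih =>
    intro h
    have hx := h x (Multiset.mem_cons_self x s)
    have hs := ih (fun a ha => h a (Multiset.mem_cons_of_mem ha))
    have hx' : x = 1 ∨ x = 2 := by omega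
    rcases hx' with rfl | rfl
    · rw [Multiset.sum_cons, Multiset.count_cons_self, Multiset.count_cons_of_ne (by norm_num), hs]
      omega
    · rw [Multiset.sum_cons, Multiset.count_cons_self, Multiset.count_cons_of_ne (by norm_num), hs]
      omega

theorem part_two_iff {n m : ℕ} (hmn : m ≤ n) :
    (∀ μ : Multiset ℕ, (∀ a ∈ μ, 0 < a ∧ a ≤ 2) → μ.sum = n → ∃ ν : Multiset ℕ, ν ≤ μ ∧ ν.sum = m) ↔
      (Odd n ∨ Even m) := by
  constructor
  · intro h
    by_contra hcon
    push Not at hcon
    obtain ⟨hn, hm⟩ := hcon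
    rw [Nat.not_odd_iff_even] at hn
    obtain ⟨t, ht⟩ := hn
    obtain ⟨ν, hν, hνs⟩ := h (Multiset.replicate t 2) (by
      intro a ha
      rw [Multiset.eq_of_mem_replicate ha]
      omega) (by
      rw [Multiset.sum_replicate, smul_eq_mul]
      omega)
    obtain ⟨k, -, rfl⟩ := Multiset.le_replicate_iff.1 hν
    apply hm
    rw [← hνs, Multiset.sum_replicate, smul_eq_mul]
    exact ⟨k, by ring⟩
  · intro h μ hμ hsum
    have hs := part_two_sum μ hμ
    rw [hsum] at hs
    obtain ⟨a', b', ha, hb, hab⟩ : ∃ a' b', a' ≤ μ.count 2 ∧ b' ≤ μ.count 1 ∧ 2 * a' + b' = m := by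
      by_cases hc : m / 2 ≤ μ.count 2
      · refine ⟨m / 2, m % 2, hc, ?_, by omega⟩
        rcases h with h | h
        · rw [Nat.odd_iff] at h
          omega
        · rw [Nat.even_iff] at h
          omega
      · exact ⟨μ.count 2, m - 2 * μ.count 2, le_rfl, by omega, by omega⟩
    refine ⟨Multiset.replicate a' 2 + Multiset.replicate b' 1, ?_, ?_⟩
    · rw [Multiset.le_iff_count]
      intro x
      rw [Multiset.count_add, Multiset.count_replicate, Multiset.count_replicate]
      by_cases h2 : 2 = x
      · subst h2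
        simpa using ha
      · by_cases h1 : 1 = x
        · subst h1
          simpa using hb
        · simp [h1, h2]
    · rw [Multiset.sum_add, Multiset.sum_replicate, Multiset.sum_replicate, smul_eq_mul, smul_eq_mul]
      omega

end Cfsg.Agent.Lib.Helper25.Elu
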