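import Cfsg.Agent.Lib.Helper25.Elu.Defs

/-! Ladder ELU, rung TRANS. -/

set_option autoImplicit false

namespace Cfsg.Agent.Lib.Helper25.Elu

open Module Polynomial

/-- matrices of determinant one versus endomorphisms of determinant one. -/
theorem sl_forall_iff {F : Type*} [Field F] {n r : ℕ} (P : End F (Fin n → F) → Prop) :
    (∀ x : Matrix.SpecialLinearGroup (Fin n) F,
      (∃ c : F, ((x ^ r : Matrix.SpecialLinearGroup (Fin n) F) : Matrix (Fin n) (Fin n) F) =
        c • (1 : Matrix (Fin n) (Fin n) F)) →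
      (∀ c : F, (x : Matrix (Fin n) (Fin n) F) ≠ c • (1 : Matrix (Fin n) (Fin n) F)) →
      P (Matrix.toLin' (x : Matrix (Fin n) (Fin n) F))) ↔
    (∀ T : End F (Fin n → F), LinearMap.det T = 1 → (∃ c : F, T ^ r = c • 1) →
      (∀ c : F, T ≠ c • 1) → P T) := by
  have hone : Matrix.toLin' (1 : Matrix (Fin n) (Fin n) F) = (1 : End F (Fin n → F)) :=
    Matrix.toLin'_one
  have hpow : ∀ M : Matrix (Fin n) (Fin n) F,
      Matrix.toLin' (M ^ r) = (Matrix.toLin' M : End F (Fin n → F)) ^ r := fun M =>
    Matrix.toLin'_pow M r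
  constructor
  · intro H T hdet hc hns
    have hd : (LinearMap.toMatrix' T).det = 1 := by
      rw [LinearMap.det_toMatrix']; exact hdet
    have hT : Matrix.toLin' (LinearMap.toMatrix' T) = T := Matrix.toLin'_toMatrix' T
    obtain ⟨x, hx⟩ : ∃ x : Matrix.SpecialLinearGroup (Fin n) F,
        (x : Matrix (Fin n) (Fin n) F) = LinearMap.toMatrix' T := ⟨⟨LinearMap.toMatrix' T, hd⟩, rfl⟩
    have := H x ?_ ?_
    · rwa [hx, hT] at this
    · obtain ⟨c, hc⟩ := hc
      refine ⟨c, ?_⟩
      rw [Matrix.SpecialLinearGroup.coe_pow, hx]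
      apply Matrix.toLin'.injective
      rw [hpow, map_smul, hone, hT]
      exact hc
    · intro c hcon
      apply hns c
      rw [hx] at hcon
      have h2 := congrArg Matrix.toLin' hcon
      rw [map_smul, hone, hT] at h2
      exact h2
  · intro H x hc hns
    apply H
    · rw [LinearMap.det_toLin']; exact x.2
    · obtain ⟨c, hc⟩ := hc
      refine ⟨c, ?_⟩
      rw [Matrix.SpecialLinearGroup.coe_pow] at hc
      rw [← hpow, hc, map_smul, hone]
    · intro c hcon
      apply hns c
      apply Matrix.toLin'.injective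
      rw [hcon, map_smul, hone]

end Cfsg.Agent.Lib.Helper25.Elu
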